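import Cfsg.Agent.H19.Cores
import Cfsg.Agent.H34.Thompson

/-! The group generated by the fixed points of the Sylow subgroups. -/

set_option autoImplicit false

namespace Cfsg.Agent.H34

open Subgroup
open Cfsg

variable {G : Type*} [Group G] [Finite G] {p : ℕ} [Fact p.Prime]

/-- If `V` is generated by Sylow fixed points, a normal `D` which is a `p`-group modulo a normal
subgroup `C` centralising `V` centralises `V`. -/
theorem le_centralizer_of_generated (V C D : Subgroup G) [C.Normal] (hD : D.Normal)
    (hgen : V ≤ ⨆ S : Sylow p G, V ⊓ centralizer ((S : Subgroup G) : Set G))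
    (hC : C ≤ centralizer (V : Set G)) (hp : IsPGroup p ↥(D.map (QuotientGroup.mk' C))) :
    D ≤ centralizer (V : Set G) := by
  rw [le_centralizer_iff]
  refine hgen.trans (iSup_le fun S => ?_)
  have hDS : D ≤ (S : Subgroup G) ⊔ C := by
    have h1 : D.map (QuotientGroup.mk' C) ≤ (S : Subgroup G).map (QuotientGroup.mk' C) := by
      have h := H19.pCore_le_sylow (S.mapSurjective (QuotientGroup.mk'_surjective C))
      refine le_trans (H19.le_pCore (hD.map _ (QuotientGroup.mk'_surjective C)) hp) ?_
      simpa using h
    have := map_le_iff_le_comap.1 h1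
    rwa [comap_map_eq, QuotientGroup.ker_mk'] at this
  rw [le_centralizer_iff]
  refine hDS.trans (sup_le ?_ (hC.trans (centralizer_le inf_le_left)))
  exact le_centralizer_iff.1 inf_le_right

/-- If `V` is generated by Sylow fixed points then `O_p(G / C_G(V)) = 1`. -/
theorem pCore_quotient_centralizer_eq_bot (V : Subgroup G) [V.Normal]
    (hgen : V ≤ ⨆ S : Sylow p G, V ⊓ centralizer ((S : Subgroup G) : Set G)) :
    pCore p (G ⧸ centralizer (V : Set G)) = ⊥ := by
  set π := QuotientGroup.mk' (centralizer (V : Set G))
  have h : (pCore p (G ⧸ centralizer (V : Set G))).comap π ≤ centralizer (V : Set G) := by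
    refine le_centralizer_of_generated V _ _ ((H19.pCore_normal p _).comap π) hgen le_rfl ?_
    rw [map_comap_eq_self_of_surjective (QuotientGroup.mk'_surjective _)]
    exact H19.pCore_isPGroup p
  rw [← map_comap_eq_self_of_surjective (QuotientGroup.mk'_surjective (centralizer (V : Set G)))
    (pCore p _), eq_bot_iff, map_le_iff_le_comap, MonoidHom.comap_bot, QuotientGroup.ker_mk']
  exact h

/-- `⟨Ω₁(Z(S)) : S⟩`. -/
abbrev omegaZ (p : ℕ) (G : Type*) [Group G] : Subgroup G :=
  ⨆ S : Sylow p G, omegaOne p ((S : Subgroup G) ⊓ centralizer ((S : Subgroup G) : Set G))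

/-- The closure of the `Ω₁(Z(S))` is normal. -/
theorem omegaZ_normal : (omegaZ p G).Normal := by
  refine ⟨fun x hx g => ?_⟩
  have : (omegaZ p G).map (MulAut.conj g).toMonoidHom ≤ omegaZ p G := by
    rw [Subgroup.map_iSup]
    refine iSup_le fun S => ?_
    refine le_trans (le_of_eq ?_) (le_iSup _ (g • S))
    rw [map_omegaOne _ (MulAut.conj g).injective, map_inf _ _ _ (MulAut.conj g).injective,
      Sylow.coe_subgroup_smul]
    congr 2
    exact map_centralizer (MulAut.conj g) _
  exact this (mem_map_of_mem _ hx)

/-- The closure is generated by Sylow fixed points. -/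
theorem omegaZ_le_iSup_fixed :
    omegaZ p G ≤ ⨆ S : Sylow p G, omegaZ p G ⊓ centralizer ((S : Subgroup G) : Set G) :=
  iSup_mono fun S => le_inf (le_iSup (fun S : Sylow p G =>
    omegaOne p ((S : Subgroup G) ⊓ centralizer ((S : Subgroup G) : Set G))) S)
    ((omegaOne_le _).trans inf_le_right)

/-- In characteristic `p` the closure lies in `Ω₁(Z(O_p(G)))`. -/
theorem omegaZ_le (hc : centralizer (pCore p G : Set G) ≤ pCore p G) :
    omegaZ p G ≤ omegaOne p (pCore p G ⊓ centralizer (pCore p G : Set G)) := by
  refine iSup_le fun S => omegaOne_mono ?_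
  have h : (S : Subgroup G) ⊓ centralizer ((S : Subgroup G) : Set G) ≤ centralizer (pCore p G : Set G) :=
    inf_le_right.trans (centralizer_le (H19.pCore_le_sylow S))
  exact le_inf (h.trans hc) h

/-- In characteristic `p` the closure is elementary abelian. -/
theorem omegaZ_isElementaryAbelian (hc : centralizer (pCore p G : Set G) ≤ pCore p G) :
    IsElementaryAbelian p (omegaZ p G) := by
  haveI := isMulCommutative_inf_centralizer (pCore p G)
  exact isElementaryAbelian_mono omegaOne_isElementaryAbelian (omegaZ_le hc)

end Cfsg.Agent.H34
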