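import Cfsg.Agent.H34.ComponentAction

/-!
An abelian group of operators whose replacement is generated by transvection groups acts
quadratically (`p = 2`).
-/

set_option autoImplicit false

namespace Cfsg.Agent.H34

open Subgroup
open Cfsg
open scoped commutatorElement Pointwise

variable {G : Type*} [Group G] [Finite G] {V H A B : Subgroup G}

namespace FFSetup

variable (S : FFSetup 2 V H)
include S

variable (hgen : H = ⨆ X : {X : Subgroup G // X ≤ H ∧ IsBestOffenderOn 2 V X}, (X : Subgroup G))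
include hgen

/-- The vectors split into planes and common fixed points. -/
theorem le_planes_sup_fixed (F : Set (Subgroup G)) (hF : ∀ t ∈ F, IsTransvectionGroup 2 V H t) :
    V ≤ (⨆ t ∈ F, ⁅V, compOf 2 H t⁆) ⊔
      (V ⊓ centralizer ((⨆ t ∈ F, compOf 2 H t : Subgroup G) : Set G)) := by
  revert hF
  induction F, Set.toFinite F using Set.Finite.induction_on with
  | empty =>
    intro _ v hv
    refine mem_sup_right (mem_inf.2 ⟨hv, ?_⟩)
    simp [mem_centralizer_iff]
  | @insert t F _ _ ih =>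
    intro hF
    have ht := hF t (Set.mem_insert _ _)
    have hF' : ∀ s ∈ F, IsTransvectionGroup 2 V H s := fun s hs => hF s (Set.mem_insert_of_mem _ hs)
    haveI := S.elem.1
    have FT := S.compFacts ht
    set E := compOf 2 H t
    set P := ⨆ s ∈ F, ⁅V, compOf 2 H s⁆
    set U := ⨆ s ∈ F, compOf 2 H s
    have hPV : P ≤ V := iSup₂_le fun s hs => (S.compFacts (hF' s hs)).moduleLe
    have hins : (⨆ s ∈ insert t F, compOf 2 H s) = E ⊔ U := iSup_insert
    have hinsP : (⨆ s ∈ insert t F, ⁅V, compOf 2 H s⁆) = ⁅V, E⁆ ⊔ P := iSup_insert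
    rw [hins, hinsP]
    refine (ih hF').trans (sup_le ((le_sup_right : P ≤ ⁅V, E⁆ ⊔ P).trans le_sup_left) ?_)
    rintro c ⟨hcV, hcU⟩
    have hc' : c ∈ ((⁅V, E⁆ : Subgroup G) : Set G) * ((V ⊓ centralizer (E : Set G) : Subgroup G) : Set G) := by
      rw [← coe_mul_of_right_le_normalizer_left _ _
        ((inf_le_left.trans (le_centralizer V)).trans ((centralizer_le FT.moduleLe).trans
          (centralizer_le_normalizer _))), FT.sup]
      exact hcV
    obtain ⟨w, hw, d, hd, rfl⟩ := Set.mem_mul.1 hc'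
    refine mul_mem (mem_sup_left (mem_sup_left hw)) (mem_sup_right ⟨hd.1, ?_⟩)
    rw [SetLike.mem_coe, centralizer_sup_eq]
    refine ⟨hd.2, ?_⟩
    show d ∈ centralizer (U : Set G)
    rw [← zpowers_le, le_centralizer_iff]
    refine iSup₂_le fun s hs => ?_
    rw [le_centralizer_iff, zpowers_le]
    by_cases he : compOf 2 H t = compOf 2 H s
    · rw [← he]; exact hd.2
    · have hwc := (S.comp_commute hgen ht (hF' s hs) he).1 hw
      have hwd : w * d ∈ centralizer ((compOf 2 H s : Subgroup G) : Set G) :=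
        centralizer_le (SetLike.coe_subset_coe.2 (le_iSup₂ (f := fun r (_ : r ∈ F) => compOf 2 H r) s hs)) hcU
      simpa using mul_mem (inv_mem hwc) hwd

/-- An abelian group whose replacement lies in `H` acts quadratically. -/
theorem quadratic_of_replacement (hAV : A ≤ normalizer (V : Set G)) (hAH : A ≤ normalizer (H : Set G))
    (hAp : IsPGroup 2 A) (hAc : ∀ a ∈ A, ∀ b ∈ A, Commute a b) (hBA : B ≤ A) (hBH : B ≤ H)
    (hB : IsBestOffenderOn 2 V B)
    (hfix : V ⊓ centralizer (B : Set G) ≤ ⁅V, A⁆ ⊔ (V ⊓ centralizer (A : Set G))) :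
    A ≤ centralizer ((⁅V, A⁆ : Subgroup G) : Set G) := by
  haveI := S.elem.1
  set F : Set (Subgroup G) := {t | IsTransvectionGroup 2 V H t ∧ t ≤ B}
  set L := ⨆ t ∈ F, ⁅V, t⁆ with hL
  set P := ⨆ t ∈ F, ⁅V, compOf 2 H t⁆ with hP
  set U := ⨆ t ∈ F, compOf 2 H t with hU
  set M := V ⊓ centralizer (U : Set G) with hM
  set R := L ⊔ ⁅M, A⁆ with hR
  have hMV : M ≤ V := inf_le_left
  have hLV : L ≤ V := iSup₂_le fun t ht =>
    le_normalizer_iff_commutator_le_left.1 (ht.1.1.trans S.norm)
  -- each element of `A` normalises the components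
  have hconj : ∀ a ∈ A, ∀ t ∈ F, MulAut.conj a • t = t := by
    intro a ha t ht
    refine H20.conj_smul_eq_of_mem_normalizer (centralizer_le_normalizer _ (mem_centralizer_iff.2 ?_))
    exact fun x hx => (hAc x (hBA (ht.2 hx)) a ha).eq
  have hE : ∀ a ∈ A, ∀ t ∈ F, MulAut.conj a • compOf 2 H t = compOf 2 H t := by
    intro a ha t ht
    rw [S.conj_compOf' (hAH ha), hconj a ha t ht]
  have hfixL : ∀ t ∈ F, A ≤ centralizer ((⁅V, t⁆ : Subgroup G) : Set G) := by
    intro t ht a ha
    refine mem_centralizer_iff.2 fun z hz => ?_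
    have hmem : a * z * a⁻¹ ∈ ⁅V, t⁆ := by
      have h1 : MulAut.conj a • ⁅V, t⁆ = ⁅V, t⁆ := by
        rw [S.conj_plane (hAV ha) t, hconj a ha t ht]
      rw [← h1]
      exact ⟨z, hz, rfl⟩
    have h2 := S.card_commutator_transvection ht.1
    obtain ⟨z₀, -, hz₀⟩ := (Nat.card_eq_two_iff' (1 : ↥⁅V, t⁆)).1 h2
    rcases eq_or_ne z 1 with rfl | hz1
    · simp
    have e1 := hz₀ ⟨z, hz⟩ (fun h => hz1 (congrArg Subtype.val h))
    have e2 := hz₀ ⟨a * z * a⁻¹, hmem⟩ (fun h => hz1 (conj_eq_one_iff.1 (congrArg Subtype.val h)))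
    have e3 : a * z * a⁻¹ = z := congrArg Subtype.val (e2.trans e1.symm)
    exact (mul_inv_eq_iff_eq_mul.1 e3).symm
  have hLA : L ≤ centralizer (A : Set G) := iSup₂_le fun t ht => le_centralizer_iff.1 (hfixL t ht)
  have hMA : ∀ a ∈ A, MulAut.conj a • M = M := by
    intro a ha
    have hUa : MulAut.conj a • U = U := by
      change U.map (MulAut.conj a).toMonoidHom = U
      rw [hU, Subgroup.map_iSup]
      refine iSup_congr fun t => ?_
      rw [Subgroup.map_iSup]
      exact iSup_congr fun ht => hE a ha t ht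
    change M.map (MulAut.conj a).toMonoidHom = M
    rw [hM, Subgroup.map_inf _ _ _ (MulAut.conj a).injective, map_centralizer]
    congr 1
    · exact H20.conj_smul_eq_of_mem_normalizer (hAV ha)
    · exact congrArg (fun K : Subgroup G => centralizer (K : Set G)) hUa
  have hMN : A ≤ normalizer (M : Set G) := fun a ha => mem_normalizer_iff_map_conj_eq.2 (hMA a ha)
  have hRV : R ≤ V := sup_le hLV ((commutator_mono hMV le_rfl).trans
    (le_normalizer_iff_commutator_le_left.1 hAV))
  -- the commutators lie in `R`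
  have hVR : ⁅V, A⁆ ≤ R := by
    let N : Subgroup G :=
      { carrier := {v | v ∈ V ∧ ∀ a ∈ A, ⁅a, v⁆ ∈ R}
        one_mem' := ⟨one_mem V, fun a _ => by simp⟩
        mul_mem' := fun {u v} hu hv => ⟨mul_mem hu.1 hv.1, fun a ha => by
          rw [commutatorElement_mul_right_eq_mul_conj]
          have hc : u * ⁅a, v⁆ * u⁻¹ = ⁅a, v⁆ := by
            rw [Subgroup.mul_comm_of_mem_isMulCommutative V hu.1 (hRV (hv.2 a ha)), mul_inv_cancel_right]
          rw [mul_assoc ⁅a, u⁆, mul_assoc ⁅a, u⁆, hc]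
          exact mul_mem (hu.2 a ha) (hv.2 a ha)⟩
        inv_mem' := fun {u} hu => ⟨inv_mem hu.1, fun a ha => by
          have hV' := hRV (hu.2 a ha)
          have : ⁅a, u⁻¹⁆ = u⁻¹ * ⁅a, u⁆⁻¹ * u := by simp [commutatorElement_def, mul_assoc]
          rw [this, Subgroup.mul_comm_of_mem_isMulCommutative V (inv_mem hu.1) (inv_mem hV'),
            inv_mul_cancel_right]
          exact inv_mem (hu.2 a ha)⟩ }
    suffices V ≤ N by
      rw [Subgroup.commutator_comm, Subgroup.commutator_le]
      exact fun a ha v hv => (this hv).2 a ha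
    refine (S.le_planes_sup_fixed hgen F fun t ht => ht.1).trans (sup_le ?_ ?_)
    · refine iSup₂_le fun t ht w hw => ?_
      have FT := S.compFacts ht.1
      refine ⟨FT.moduleLe hw, fun a ha => mem_sup_left ?_⟩
      refine le_iSup₂ (f := fun r (_ : r ∈ F) => ⁅V, r⁆) t ht ?_
      by_cases hwl : w ∈ ⁅V, t⁆
      · have h1 : ⁅a, w⁆ = 1 := commutatorElement_eq_one_iff_mul_comm.2
          (mem_centralizer_iff.1 (hfixL t ht ha) w hwl).symm
        rw [h1]; exact one_mem _
      set W := ⁅V, compOf 2 H t⁆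
      have hle : ⁅V, t⁆ ≤ W := commutator_mono le_rfl le_sup_right
      have hidx : ((⁅V, t⁆ : Subgroup G).subgroupOf W).index = 2 := by
        have h := Subgroup.card_mul_index ((⁅V, t⁆ : Subgroup G).subgroupOf W)
        rw [Nat.card_congr (subgroupOfEquivOfLe hle).toEquiv, S.card_commutator_transvection ht.1,
          FT.card] at h
        omega
      have haW : a * w * a⁻¹ ∈ W := by
        have h1 : MulAut.conj a • W = W := by
          rw [S.conj_plane (hAV ha), hE a ha t ht]
        rw [← h1]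
        exact ⟨w, hw, rfl⟩
      have hnot : a * w * a⁻¹ ∉ ⁅V, t⁆ := fun h => by
        have h1 : MulAut.conj a • ⁅V, t⁆ = ⁅V, t⁆ := by
          rw [S.conj_plane (hAV ha) t, hconj a ha t ht]
        rw [← h1] at h
        obtain ⟨y, hy, hye⟩ := h
        exact hwl ((MulAut.conj a).injective hye ▸ hy)
      have := (Subgroup.mul_mem_iff_of_index_two hidx (a := ⟨a * w * a⁻¹, haW⟩)
        (b := ⟨w⁻¹, W.inv_mem hw⟩)).2 (iff_of_false hnot (by simpa [mem_subgroupOf] using hwl))
      simpa [mem_subgroupOf, commutatorElement_def] using this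
    · intro v hv
      refine ⟨hv.1, fun a ha => mem_sup_right ?_⟩
      rw [Subgroup.commutator_comm]
      exact commutator_mem_commutator ha hv
  -- `A` fixes `M`
  have hBU : B ≤ U := (S.generated_by_transvections hBH hB).trans (sSup_le fun t ht =>
    (le_sup_right : t ≤ compOf 2 H t).trans (le_iSup₂ (f := fun r (_ : r ∈ F) => compOf 2 H r) t ht))
  have hMK : M ≤ R ⊔ (V ⊓ centralizer (A : Set G)) :=
    ((inf_le_inf_left V (centralizer_le (SetLike.coe_subset_coe.2 hBU))).trans hfix).trans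
      (sup_le_sup_right hVR _)
  have hMcomm : ⁅M, A⁆ ≤ ⁅⁅M, A⁆, A⁆ := by
    rw [Subgroup.commutator_comm, Subgroup.commutator_le]
    intro a ha m hm
    have hRn : R ≤ normalizer ((V ⊓ centralizer (A : Set G) : Subgroup G) : Set G) :=
      (hRV.trans (le_centralizer V)).trans ((centralizer_le inf_le_left).trans (centralizer_le_normalizer _))
    have hm' : m ∈ (R : Set G) * ((V ⊓ centralizer (A : Set G) : Subgroup G) : Set G) := by
      rw [← coe_mul_of_left_le_normalizer_right _ _ hRn]; exact hMK hm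
    obtain ⟨r, hr, c, hc, rfl⟩ := Set.mem_mul.1 hm'
    have hLn : L ≤ normalizer ((⁅M, A⁆ : Subgroup G) : Set G) :=
      (hLV.trans (le_centralizer V)).trans
        ((centralizer_le ((commutator_mono hMV le_rfl).trans (le_normalizer_iff_commutator_le_left.1 hAV))).trans
          (centralizer_le_normalizer _))
    have hr' : r ∈ (L : Set G) * ((⁅M, A⁆ : Subgroup G) : Set G) := by
      rw [← coe_mul_of_left_le_normalizer_right _ _ hLn]; exact hr
    obtain ⟨l, hl, y, hy, rfl⟩ := Set.mem_mul.1 hr'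
    have hlc : a * l = l * a := mem_centralizer_iff.1 (hLA hl) a ha
    have hcc : a * c = c * a := mem_centralizer_iff.1 hc.2 a ha
    have hyV : ⁅a, y⁆ ∈ V := comm_mem_of_mem_normalizer (hAV ha) (hRV (mem_sup_right hy))
    have e : ⁅a, l * y * c⁆ = ⁅a, y⁆ := by
      calc ⁅a, l * y * c⁆ = (a * l) * y * (c * a⁻¹ * c⁻¹) * y⁻¹ * l⁻¹ := by
            simp [commutatorElement_def, mul_assoc]
        _ = (l * a) * y * a⁻¹ * y⁻¹ * l⁻¹ := by
            rw [hlc, show c * a⁻¹ * c⁻¹ = (c * a * c⁻¹)⁻¹ by group, ← hcc, mul_inv_cancel_right]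
        _ = l * ⁅a, y⁆ * l⁻¹ := by simp [commutatorElement_def, mul_assoc]
        _ = _ := by rw [Subgroup.mul_comm_of_mem_isMulCommutative V (hLV hl) hyV, mul_inv_cancel_right]
    rw [e, Subgroup.commutator_comm A M, Subgroup.commutator_comm ⁅M, A⁆ A]
    exact commutator_mem_commutator ha hy
  have hMbot : ⁅M, A⁆ = ⊥ := by
    haveI : Fact (Nat.Prime 2) := ⟨Nat.prime_two⟩
    refine eq_bot_of_le_commutator (p := 2)
      ((IsPGroup_of_isElementaryAbelian S.elem).to_le (le_sup_right.trans hRV))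
      (normalizer_commutator_ge_right M A) (fun a ha => ?_) hMcomm
    obtain ⟨k, hk⟩ := hAp ⟨a, ha⟩
    exact ⟨k, by rw [show a ^ 2 ^ k = 1 from congrArg Subtype.val hk]; exact one_mem _⟩
  refine le_centralizer_iff.1 (hVR.trans ?_)
  rw [hR, hMbot, sup_bot_eq]
  exact hLA

end FFSetup

end Cfsg.Agent.H34
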