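import Cfsg.Agent.H34.Linear
import Cfsg.Agent.H34.AbelianOffender
import Cfsg.Agent.H34.ComponentProduct

/-!
Abelian 2-subgroups with maximal offender number in a solvable group acting without normal 2-subgroup
act as elementary abelian best offenders.
-/

set_option autoImplicit false

namespace Cfsg.Agent.H34

open Subgroup
open Cfsg
open scoped commutatorElement Pointwise

variable {G : Type*} [Group G] [Finite G] {V : Subgroup G} [V.Normal]

/-- Abelian 2-subgroups of the induced group with maximal offender number. -/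
def goodOffenders (V : Subgroup G) [V.Normal] : Set (Subgroup (Hol V)) :=
  {A | A ≤ (holHom V).range ∧ IsPGroup 2 A ∧ (∀ a ∈ A, ∀ b ∈ A, Commute a b) ∧
    ∀ B ≤ A, offNum (holV V).range B ≤ offNum (holV V).range A}

/-- The part of an offender centralising its commutator. -/
abbrev replPart (V : Subgroup G) [V.Normal] (A : Subgroup (Hol V)) : Subgroup (Hol V) :=
  A ⊓ centralizer ((⁅(holV V).range, A⁆ : Subgroup (Hol V)) : Set (Hol V))

/-- The image of an abelian 2-subgroup with the offender property is in the family. -/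
theorem map_mem_goodOffenders {A : Subgroup G} (hAp : IsPGroup 2 A) (hAc : ∀ a ∈ A, ∀ b ∈ A, Commute a b)
    (hmax : ∀ B ≤ A, offNum V B ≤ offNum V A) : A.map (holHom V) ∈ goodOffenders V := by
  refine ⟨map_le_range _ _, hAp.map _, ?_, fun B' hB' => ?_⟩
  · rintro _ ⟨a, ha, rfl⟩ _ ⟨b, hb, rfl⟩
    exact (hAc a ha b hb).map _
  set B := A ⊓ B'.comap (holHom V)
  have hBB : B.map (holHom V) = B' := by
    refine le_antisymm ((map_mono inf_le_right).trans (map_comap_le _ _)) fun y hy => ?_
    obtain ⟨a, ha, rfl⟩ := hB' hy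
    exact ⟨a, ⟨ha, hy⟩, rfl⟩
  have hker : B ⊓ centralizer (V : Set G) = A ⊓ centralizer (V : Set G) := by
    refine le_antisymm (inf_le_inf_right _ inf_le_left) (le_inf ?_ inf_le_right)
    refine fun a ha => ⟨ha.1, ?_⟩
    have : a ∈ (holHom V).ker := by rw [holHom_ker]; exact ha.2
    show holHom V a ∈ B'
    rw [MonoidHom.mem_ker.1 this]
    exact one_mem _
  have h := hmax B inf_le_left
  unfold offNum at h ⊢
  rw [← hBB, hol_fixed_card, hol_fixed_card]
  rw [← hol_card_map V B, ← hol_card_map V A, hker] at h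
  refine Nat.le_of_mul_le_mul_right ?_ (Nat.card_pos (α := ↥(A ⊓ centralizer (V : Set G))))
  calc _ = Nat.card ↥(B.map (holHom V)) * Nat.card ↥(A ⊓ centralizer (V : Set G)) *
        Nat.card ↥(V ⊓ centralizer (B : Set G)) := by ring
    _ ≤ _ := h
    _ = _ := by ring

variable (hsep : IsPSolvable 2 G) (hV : IsElementaryAbelian 2 V)
  (hO : ∀ D : Subgroup G, D.Normal → IsPGroup 2 ↥(D.map (QuotientGroup.mk' (centralizer (V : Set G)))) →
      D ≤ centralizer (V : Set G))
include hsep hV hO

/-- Every such subgroup is an elementary abelian best offender. -/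
theorem isBestOffenderOn_of_good {A : Subgroup (Hol V)} (hA : A ∈ goodOffenders V) :
    IsBestOffenderOn 2 (holV V).range A := by
  haveI : Fact (Nat.Prime 2) := ⟨Nat.prime_two⟩
  set R := (holV V).range with hR
  have hRe : IsElementaryAbelian 2 R := hol_range_elem V hV
  haveI := hRe.1
  have hrange : (⊤ : Subgroup G).map (holHom V) = (holHom V).range := (MonoidHom.range_eq_map _).symm
  have Stop : FFSetup 2 R (holHom V).range := hrange ▸ hol_setup hsep hV ⊤ hO
  have hab : ∀ A ∈ goodOffenders V, ⁅A, A⁆ ≤ centralizer (R : Set (Hol V)) := fun A hA => by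
    rw [commutator_eq_bot_iff_le_centralizer.2 fun a ha =>
      mem_centralizer_iff.2 fun b hb => hA.2.2.1 b hb a ha]
    exact bot_le
  -- replacement parts are best offenders
  have hbest : ∀ A ∈ goodOffenders V, IsBestOffenderOn 2 R (replPart V A) := by
    intro A hA
    obtain ⟨h1, -⟩ := replacement (hA.1.trans Stop.norm) (hab A hA) hA.2.2.2 (le_refl R)
    have hBA : replPart V A ≤ A := inf_le_left
    have hsq : ∀ b ∈ replPart V A, b ^ 2 = 1 := by
      intro b hb
      have : b ^ 2 ∈ (holHom V).range ⊓ centralizer (R : Set (Hol V)) := by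
        refine mem_inf.2 ⟨pow_mem (hA.1 (hBA hb)) 2, mem_centralizer_iff.2 fun r hr => ?_⟩
        have hbr : ⁅b, r⁆ ∈ ⁅R, A⁆ := by
          rw [Subgroup.commutator_comm]; exact commutator_mem_commutator (hBA hb) hr
        have hfix : b * ⁅b, r⁆ * b⁻¹ = ⁅b, r⁆ := by
          rw [← mem_centralizer_iff.1 hb.2 _ hbr, mul_inv_cancel_right]
        have hmem : ⁅b, r⁆ ∈ R := comm_mem_of_mem_normalizer (Stop.norm (hA.1 (hBA hb))) hr
        have h2 : ⁅b ^ 2, r⁆ = 1 := by
          rw [sq, comm_mul_left, hfix, ← sq]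
          exact hRe.2 _ hmem
        exact (commutatorElement_eq_one_iff_mul_comm.1 h2).symm
      rwa [Stop.faithful, mem_bot] at this
    have he : IsElementaryAbelian 2 (replPart V A) := ⟨le_centralizer_iff_isMulCommutative.1
      (fun a ha => mem_centralizer_iff.2 fun b hb => hA.2.2.1 b (hBA hb) a (hBA ha)), hsq⟩
    refine (Stop.bestOffender_iff (hBA.trans hA.1)).2 ⟨he, le_antisymm (Stop.offNum_le (hBA.trans hA.1) he) ?_⟩
    rw [h1]
    exact (FFSetup.offNum_bot (V := R)).ge.trans (hA.2.2.2 ⊥ bot_le)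
  set H₀ := ⨆ A ∈ goodOffenders V, replPart V A with hH₀
  have hH₀r : H₀ ≤ (holHom V).range := iSup₂_le fun A hA => inf_le_left.trans hA.1
  have hinv : ∀ g ∈ (holHom V).range, g ∈ normalizer (H₀ : Set (Hol V)) := by
    intro g hg
    have hgR := Stop.norm hg
    have hfwd : ∀ g ∈ (holHom V).range, ∀ A ∈ goodOffenders V,
        (replPart V A).map (MulAut.conj g).toMonoidHom ≤ H₀ := by
      intro g hg A hA
      have hgR := Stop.norm hg
      have hRg : R.map (MulAut.conj g).toMonoidHom = R := H20.conj_smul_eq_of_mem_normalizer hgR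
      set A' := A.map (MulAut.conj g).toMonoidHom
      have hoff : ∀ B : Subgroup (Hol V), offNum R (B.map (MulAut.conj g).toMonoidHom) = offNum R B := by
        intro B
        unfold offNum
        rw [card_map_of_injective (MulAut.conj g).injective]
        congr 1
        conv_lhs => rw [← hRg]
        rw [← map_centralizer, ← Subgroup.map_inf _ _ _ (MulAut.conj g).injective,
          card_map_of_injective (MulAut.conj g).injective]
      have hA' : A' ∈ goodOffenders V := by
        refine ⟨?_, hA.2.1.map _, ?_, fun B hB => ?_⟩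
        · rintro _ ⟨a, ha, rfl⟩
          exact mul_mem (mul_mem hg (hA.1 ha)) (inv_mem hg)
        · rintro _ ⟨a, ha, rfl⟩ _ ⟨b, hb, rfl⟩
          exact (hA.2.2.1 a ha b hb).map _
        · have hB' : (B.comap (MulAut.conj g).toMonoidHom).map (MulAut.conj g).toMonoidHom = B :=
            map_comap_eq_self_of_surjective (MulAut.conj g).surjective B
          rw [← hB', hoff, hoff]
          refine hA.2.2.2 _ fun x hx => ?_
          obtain ⟨y, hy, hyx⟩ := hB hx
          exact (MulAut.conj g).injective hyx ▸ hy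
      refine le_trans ?_ (le_iSup₂ (f := fun C (_ : C ∈ goodOffenders V) => replPart V C) A' hA')
      rw [Subgroup.map_inf _ _ _ (MulAut.conj g).injective, map_centralizer, Subgroup.map_commutator, hRg]
    refine mem_normalizer_iff_map_conj_eq.2 (eq_of_le_of_card_ge ?_
      (card_map_of_injective (MulAut.conj g).injective).ge)
    rw [map_le_iff_le_comap]
    exact iSup₂_le fun A hA => map_le_iff_le_comap.1 (hfwd g hg A hA)
  set N₀ := H₀.comap (holHom V)
  haveI : N₀.Normal := ⟨fun n hn g => by
    show holHom V (g * n * g⁻¹) ∈ H₀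
    rw [map_mul, map_mul, map_inv]
    exact (mem_normalizer_iff.1 (hinv _ ⟨g, rfl⟩) _).1 hn⟩
  have hN₀ : N₀.map (holHom V) = H₀ := map_comap_eq_self hH₀r
  have S₀ : FFSetup 2 R H₀ := hN₀ ▸ hol_setup hsep hV N₀ hO
  have hgen : H₀ = ⨆ X : {X : Subgroup (Hol V) // X ≤ H₀ ∧ IsBestOffenderOn 2 R X}, (X : Subgroup (Hol V)) := by
    refine le_antisymm (iSup₂_le fun A hA => ?_) (iSup_le fun X => X.2.1)
    exact le_iSup (fun X : {X : Subgroup (Hol V) // X ≤ H₀ ∧ IsBestOffenderOn 2 R X} => (X : Subgroup (Hol V)))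
      ⟨replPart V A, le_iSup₂ (f := fun C (_ : C ∈ goodOffenders V) => replPart V C) A hA, hbest A hA⟩
  obtain ⟨-, h2⟩ := replacement (hA.1.trans Stop.norm) (hab A hA) hA.2.2.2 (le_refl R)
  have hquad := S₀.quadratic_of_replacement hgen (hA.1.trans Stop.norm) (fun a ha => hinv a (hA.1 ha))
    hA.2.1 hA.2.2.1 inf_le_left (le_iSup₂ (f := fun C (_ : C ∈ goodOffenders V) => replPart V C) A hA)
    (hbest A hA) h2.le
  have h := hbest A hA
  rwa [replPart, inf_eq_left.2 hquad] at h

/-- A normal subgroup generated by such subgroups induces a product of symmetric groups of degree three. -/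
theorem exists_equiv_perm_three_of_good (N : Subgroup G) [N.Normal] (𝒜 : Set (Subgroup G))
    (hgen : N = sSup 𝒜) (hgood : ∀ A ∈ 𝒜, A.map (holHom V) ∈ goodOffenders V)
    (hne : ¬ N ≤ centralizer (V : Set G)) :
    ∃ n : ℕ, 1 ≤ n ∧ Nonempty ((↥N ⧸ (centralizer (V : Set G)).subgroupOf N) ≃* (Fin n → Equiv.Perm (Fin 3))) := by
  haveI : Fact (Nat.Prime 2) := ⟨Nat.prime_two⟩
  set H := N.map (holHom V) with hH
  have S := hol_setup hsep hV N hO
  have hgenH : H = ⨆ X : {X : Subgroup (Hol V) // X ≤ H ∧ IsBestOffenderOn 2 (holV V).range X},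
      (X : Subgroup (Hol V)) := by
    refine le_antisymm ?_ (iSup_le fun X => X.2.1)
    rw [hH, map_le_iff_le_comap]
    conv_lhs => rw [hgen]
    refine sSup_le fun A hA => map_le_iff_le_comap.1 ?_
    exact le_iSup (fun X : {X : Subgroup (Hol V) // X ≤ H ∧ IsBestOffenderOn 2 (holV V).range X} =>
        (X : Subgroup (Hol V)))
      ⟨A.map (holHom V), map_mono (hgen ▸ le_sSup hA), isBestOffenderOn_of_good hsep hV hO (hgood A hA)⟩
  have hne' : H ≠ ⊥ := fun h => hne (by
    rw [← holHom_ker V]; exact (map_eq_bot_iff (f := holHom V) N).1 h)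
  obtain ⟨n, hn, ⟨e⟩⟩ := S.exists_equiv_perm_three hgenH hne'
  refine ⟨n, hn, ⟨?_⟩⟩
  have hker : ((holHom V).subgroupMap N).ker = (centralizer (V : Set G)).subgroupOf N := by
    ext x
    rw [MonoidHom.mem_ker, mem_subgroupOf, ← holHom_ker V, MonoidHom.mem_ker]
    exact Subtype.ext_iff
  exact (QuotientGroup.quotientMulEquivOfEq hker.symm).trans
    ((QuotientGroup.quotientKerEquivOfSurjective _ (MonoidHom.subgroupMap_surjective _ _)).trans e)

end Cfsg.Agent.H34
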