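import Cfsg.Agent.H35.Constrained
import Cfsg.Agent.H84.PSolvable
import Cfsg.Agent.H44.HallHigman
import Cfsg.Agent.H34.FFBasic
import Cfsg.Agent.H34.Offender
import Mathlib.GroupTheory.SemidirectProduct

/-! Replacing an action on a normal abelian subgroup by a faithful one inside its holomorph. -/

set_option autoImplicit false

namespace Cfsg.Agent.H34

open Subgroup
open Cfsg
open scoped commutatorElement

variable {G : Type*} [Group G] (V : Subgroup G) [V.Normal]

/-- The holomorph of `V`. -/
abbrev Hol := ↥V ⋊[MonoidHom.id (MulAut ↥V)] MulAut ↥V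

/-- The copy of `V` in its holomorph. -/
abbrev holV : ↥V →* Hol V := SemidirectProduct.inl

/-- The group induced by `G` on `V`, inside the holomorph. -/
def holHom : G →* Hol V := (SemidirectProduct.inr).comp MulAut.conjNormal

/-- The finite holomorph. -/
instance hol_finite [Finite G] : Finite (Hol V) :=
  Finite.of_equiv _ (SemidirectProduct.equivProd).symm

/-- Conjugation in the holomorph is conjugation in `G`. -/
theorem hol_conj (g : G) (v : V) :
    holHom V g * holV V v * (holHom V g)⁻¹ =
      holV V ⟨g * v * g⁻¹, Subgroup.Normal.conj_mem inferInstance _ v.2 g⟩ := by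
  have h := (SemidirectProduct.inl_aut (φ := MonoidHom.id (MulAut ↥V)) (MulAut.conjNormal g) v).symm
  rw [map_inv] at h
  exact h

/-- The kernel is the centraliser. -/
theorem holHom_ker : (holHom V).ker = centralizer (V : Set G) := by
  ext g
  rw [MonoidHom.mem_ker, mem_centralizer_iff]
  constructor
  · intro h v hv
    have h1 := hol_conj V g ⟨v, hv⟩
    rw [h, one_mul, inv_one, mul_one] at h1
    have h2 : v = g * v * g⁻¹ := congrArg Subtype.val (SemidirectProduct.inl_injective h1)
    calc v * g = g * v * g⁻¹ * g := by rw [← h2]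
      _ = g * v := by simp [mul_assoc]
  · intro h
    have : MulAut.conjNormal g = (1 : MulAut V) := by
      ext v
      change g * (v : G) * g⁻¹ = v
      rw [← h v v.2, mul_inv_cancel_right]
    change SemidirectProduct.inr (MulAut.conjNormal g) = 1
    rw [this, map_one]

omit [V.Normal] in
/-- The image of `V`. -/
theorem hol_range_elem {p : ℕ} (hV : IsElementaryAbelian p V) :
    IsElementaryAbelian p (holV V).range := by
  refine ⟨le_centralizer_iff_isMulCommutative.1 ?_, ?_⟩
  · rintro _ ⟨x, rfl⟩ _ ⟨y, rfl⟩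
    have := hV.1
    rw [← map_mul, ← map_mul]
    exact congrArg _ (Subtype.ext (setLike_mul_comm (s := V) y.2 x.2))
  · rintro _ ⟨x, rfl⟩
    rw [← map_pow, show x ^ p = 1 from Subtype.ext (hV.2 x x.2), map_one]

/-- The image of `G` normalises the image of `V`. -/
theorem hol_map_le_normalizer (B : Subgroup G) :
    B.map (holHom V) ≤ normalizer ((holV V).range : Set (Hol V)) := by
  rintro _ ⟨g, -, rfl⟩
  rw [mem_normalizer_iff]
  intro n
  constructor
  · rintro ⟨v, rfl⟩
    exact ⟨_, (hol_conj V g v).symm⟩
  · rintro ⟨w, hw⟩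
    refine ⟨⟨g⁻¹ * w * g, by simpa using Subgroup.Normal.conj_mem inferInstance _ w.2 g⁻¹⟩, ?_⟩
    have hn : n = (holHom V g)⁻¹ * holV V w * holHom V g := by rw [hw]; simp [mul_assoc]
    have h1 := hol_conj V g⁻¹ w
    rw [map_inv, inv_inv] at h1
    rw [hn, h1]
    congr 1
    exact Subtype.ext (by simp)

/-- Fixed points correspond. -/
theorem hol_fixed (B : Subgroup G) :
    (holV V).range ⊓ centralizer ((B.map (holHom V) : Subgroup (Hol V)) : Set (Hol V)) =
      ((V ⊓ centralizer (B : Set G)).subgroupOf V).map (holV V) := by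
  ext x
  constructor
  · rintro ⟨⟨v, rfl⟩, hx⟩
    refine ⟨v, ⟨v.2, fun b hb => ?_⟩, rfl⟩
    have h1 := hx _ (mem_map_of_mem (holHom V) hb)
    have h2 := hol_conj V b v
    rw [h1, mul_inv_cancel_right] at h2
    have h3 : (v : G) = b * v * b⁻¹ := congrArg Subtype.val (SemidirectProduct.inl_injective h2)
    calc b * (v : G) = b * v * b⁻¹ * b := by simp [mul_assoc]
      _ = v * b := by rw [← h3]
  · rintro ⟨v, ⟨-, hv⟩, rfl⟩
    refine ⟨⟨v, rfl⟩, ?_⟩
    rintro _ ⟨b, hb, rfl⟩
    have h := hol_conj V b v
    have h2 : (⟨b * v * b⁻¹, Subgroup.Normal.conj_mem inferInstance _ v.2 b⟩ : V) = v :=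
      Subtype.ext (by
        change b * (v : G) * b⁻¹ = v
        have hb' : b * (v : G) = v * b := hv b hb
        rw [hb', mul_inv_cancel_right])
    rw [h2] at h
    calc holHom V b * holV V v = holHom V b * holV V v * (holHom V b)⁻¹ * holHom V b := by
          simp [mul_assoc]
      _ = _ := by rw [h]

/-- Orders of fixed points correspond. -/
theorem hol_fixed_card (B : Subgroup G) :
    Nat.card ↥((holV V).range ⊓ centralizer ((B.map (holHom V) : Subgroup (Hol V)) : Set (Hol V))) =
      Nat.card ↥(V ⊓ centralizer (B : Set G)) := by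
  rw [hol_fixed, card_map_of_injective SemidirectProduct.inl_injective,
    Nat.card_congr (subgroupOfEquivOfLe inf_le_left).toEquiv]

/-- The image acts faithfully. -/
theorem hol_faithful (B : Subgroup G) :
    B.map (holHom V) ⊓ centralizer ((holV V).range : Set (Hol V)) = ⊥ := by
  rw [eq_bot_iff]
  rintro _ ⟨⟨g, -, rfl⟩, hg⟩
  have hC : g ∈ centralizer (V : Set G) := by
    rw [mem_centralizer_iff]
    intro v hv
    have h1 := hg _ ⟨⟨v, hv⟩, rfl⟩
    have h2 := hol_conj V g ⟨v, hv⟩
    rw [← h1, mul_inv_cancel_right] at h2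
    have h3 : v = g * v * g⁻¹ := congrArg Subtype.val (SemidirectProduct.inl_injective h2)
    calc v * g = g * v * g⁻¹ * g := by rw [← h3]
      _ = g * v := by simp [mul_assoc]
  rw [mem_bot, ← MonoidHom.mem_ker, holHom_ker]
  exact hC

/-- Orders of images. -/
theorem hol_card_map [Finite G] (B : Subgroup G) :
    Nat.card ↥(B.map (holHom V)) * Nat.card ↥(B ⊓ centralizer (V : Set G)) = Nat.card B := by
  rw [← relIndex_ker, holHom_ker, ← inf_relIndex_right, inf_comm, mul_comm,
    ← relIndex_bot_left, ← relIndex_bot_left, relIndex_mul_relIndex _ _ _ bot_le inf_le_left]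

variable {V}

/-- A `p`-solvable normal subgroup acting without normal `p`-subgroup on `V` gives a setup. -/
theorem hol_setup_of_isPSolvable [Finite G] {p : ℕ} [Fact p.Prime]
    (hV : IsElementaryAbelian p V) (N : Subgroup G) [N.Normal] (hsep : IsPSolvable p ↥N)
    (hO : ∀ D : Subgroup G, D.Normal → IsPGroup p ↥(D.map (QuotientGroup.mk' (centralizer (V : Set G)))) →
      D ≤ centralizer (V : Set G)) :
    FFSetup p (holV V).range (N.map (holHom V)) := by
  refine ⟨hol_range_elem V hV, hol_map_le_normalizer V N, hol_faithful V N, ?_⟩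
  have hsol : IsPSolvable p ↥(N.map (holHom V)) :=
    H84.isPSolvable_of_surjective ((holHom V).subgroupMap N) (MonoidHom.subgroupMap_surjective _ _)
      hsep
  refine H44.centralizer_pPrimeCore_le hsol ?_
  set M := N.map (holHom V)
  set P := (pCore p ↥M).map M.subtype
  have hPM : P ≤ M := map_subtype_le _
  have hPn : (P.comap (holHom V)).Normal := by
    refine ⟨fun x hx g => ?_⟩
    have hgM : holHom V g ∈ normalizer (M : Set (Hol V)) := by
      have := (le_normalizer_map (H := N) (holHom V)) (mem_map_of_mem (holHom V)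
        (show g ∈ normalizer (N : Set G) from normalizer_eq_top_iff.2 (inferInstance : N.Normal) ▸ mem_top g))
      exact this
    obtain ⟨y, hy, hyx⟩ := mem_comap.1 hx
    rw [mem_comap, map_mul, map_mul, map_inv, ← hyx]
    have hchar := H19.pCore_characteristic p ↥M
    exact ⟨M.normalizerMonoidHom ⟨_, hgM⟩ y,
      (hchar.fixed (M.normalizerMonoidHom ⟨_, hgM⟩)).ge hy, rfl⟩
  have hle := hO _ hPn ?_
  · rw [eq_bot_iff]
    intro y hy
    obtain ⟨g, -, hg⟩ := y.2
    have : g ∈ P.comap (holHom V) := ⟨y, hy, hg.symm⟩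
    have h1 := hle this
    rw [← holHom_ker, MonoidHom.mem_ker, hg] at h1
    exact Subtype.ext h1
  · obtain ⟨k, hk⟩ := IsPGroup.iff_card.1 ((H19.pCore_isPGroup (G := ↥M) p).map M.subtype)
    refine IsPGroup.of_card (n := k) ?_
    rw [← relIndex_ker, QuotientGroup.ker_mk', ← holHom_ker, relIndex_ker, ← hk,
      Subgroup.map_comap_eq_self (hPM.trans (map_le_range (holHom V) N))]

/-- A normal subgroup of a `p`-solvable group acting without normal `p`-subgroup on `V` gives a setup. -/
theorem hol_setup [Finite G] {p : ℕ} [Fact p.Prime] (hsep : IsPSolvable p G)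
    (hV : IsElementaryAbelian p V) (N : Subgroup G) [N.Normal]
    (hO : ∀ D : Subgroup G, D.Normal → IsPGroup p ↥(D.map (QuotientGroup.mk' (centralizer (V : Set G)))) →
      D ≤ centralizer (V : Set G)) :
    FFSetup p (holV V).range (N.map (holHom V)) :=
  hol_setup_of_isPSolvable hV N (H35.isPSolvable_subgroup hsep N) hO

/-- The image of a member of `𝒜(G)` lying in `N` is a best offender. -/
theorem hol_bestOffender [Finite G] {p : ℕ} [Fact p.Prime] (hV : IsElementaryAbelian p V)
    {N A : Subgroup G} (S : FFSetup p (holV V).range (N.map (holHom V))) (hAN : A ≤ N)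
    (hA : A ∈ maxElementaryAbelianSubgroups p G) :
    IsBestOffenderOn p (holV V).range (A.map (holHom V)) := by
  have he : IsElementaryAbelian p (A.map (holHom V)) := isElementaryAbelian_map hA.1 _
  refine (S.bestOffender_iff (map_mono hAN)).2 ⟨he, le_antisymm (S.offNum_le (map_mono hAN) he) ?_⟩
  have h0 := (isBestOffenderOn_of_mem_max hV hA).1 (A ⊓ centralizer (V : Set G)) inf_le_left
  have hfix : V ⊓ centralizer ((A ⊓ centralizer (V : Set G) : Subgroup G) : Set G) = V :=
    inf_eq_left.2 (le_centralizer_iff.1 inf_le_right)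
  rw [hfix, ← hol_card_map V A, mul_comm] at h0
  have hcardV : Nat.card ↥(holV V).range = Nat.card V :=
    (Nat.card_congr (MonoidHom.ofInjective SemidirectProduct.inl_injective).toEquiv).symm
  rw [hcardV, offNum, hol_fixed_card]
  refine Nat.le_of_mul_le_mul_right (h0.trans (le_of_eq ?_)) (Nat.card_pos (α := ↥(A ⊓ centralizer (V : Set G))))
  ring

end Cfsg.Agent.H34
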