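import Cfsg.Agent.H19.Frattini
import Cfsg.Agent.H34.Linear

/-! Reducing action `p`-stability to faithful linear groups. -/

set_option autoImplicit false

namespace Cfsg.Agent.H34

open Subgroup
open Cfsg
open scoped commutatorElement

universe u

variable {G : Type u} [Group G] [Finite G] {p : ℕ} [Fact p.Prime]

/-- Quadratic elements inside the `p`-core of the induced group give `p`-stability on `V`. -/
theorem isPStableOn_of_faithful (V : Subgroup G) [V.Normal]
    (hgood : ∀ a : Hol V, a ∈ (holHom V).range →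
      ⁅⁅(holV V).range, zpowers a⁆, zpowers a⁆ = ⊥ →
        a ∈ (pCore p ↥(holHom V).range).map (holHom V).range.subtype) :
    IsPStableOn p V := by
  intro a ha
  have hconj : ∀ (g : G) (v : V) (h : g * v * g⁻¹ ∈ V),
      holHom V g * holV V v * (holHom V g)⁻¹ = holV V ⟨g * v * g⁻¹, h⟩ := fun g v _ => hol_conj V g v
  have hq : ⁅⁅(holV V).range, zpowers (holHom V a)⁆, zpowers (holHom V a)⁆ = ⊥ := by
    set W := ((⁅V, zpowers a⁆).subgroupOf V).map (holV V)
    have hle : ⁅(holV V).range, zpowers (holHom V a)⁆ ≤ W := by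
      rw [commutator_le]
      rintro _ ⟨v, rfl⟩ g hg
      rw [← MonoidHom.map_zpowers] at hg
      obtain ⟨b, hb, rfl⟩ := hg
      have hm : (v : G) * (b * (v⁻¹ : V) * b⁻¹) ∈ V :=
        mul_mem v.2 (Subgroup.Normal.conj_mem inferInstance _ (v⁻¹ : V).2 b)
      refine ⟨⟨_, hm⟩, ?_, ?_⟩
      · change (v : G) * (b * (v⁻¹ : V) * b⁻¹) ∈ ⁅V, zpowers a⁆
        have := commutator_mem_commutator (H₁ := V) v.2 hb
        simpa [commutatorElement_def, mul_assoc] using this
      · rw [commutatorElement_def]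
        calc holV V ⟨_, hm⟩ = holV V v * holV V ⟨b * (v⁻¹ : V) * b⁻¹,
              Subgroup.Normal.conj_mem inferInstance _ (v⁻¹ : V).2 b⟩ := by rw [← map_mul]; rfl
          _ = holV V v * (holHom V b * holV V v⁻¹ * (holHom V b)⁻¹) := by rw [hol_conj]
          _ = _ := by rw [map_inv]; simp [mul_assoc]
    refine eq_bot_iff.2 ((commutator_mono hle le_rfl).trans (le_bot_iff.2 ?_))
    rw [commutator_eq_bot_iff_le_centralizer]
    rintro _ ⟨v, hv, rfl⟩ g hg
    rw [SetLike.mem_coe, ← MonoidHom.map_zpowers] at hg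
    obtain ⟨b, hb, rfl⟩ := hg
    have h1 : b * (v : G) = v * b := commutator_eq_bot_iff_le_centralizer.1 ha hv b hb
    have h2 := hol_conj V b v
    rw [show (⟨b * v * b⁻¹, Subgroup.Normal.conj_mem inferInstance _ v.2 b⟩ : V) = v from
      Subtype.ext (by change b * (v : G) * b⁻¹ = v; rw [h1, mul_inv_cancel_right])] at h2
    exact mul_inv_eq_iff_eq_mul.1 h2
  obtain ⟨y, hy, hya⟩ := hgood _ ⟨a, rfl⟩ hq
  set P := (pCore p ↥(holHom V).range).map (holHom V).range.subtype
  set f := (holHom V).rangeRestrict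
  set D := (pCore p ↥(holHom V).range).comap f
  have hDn : D.Normal := (H19.pCore_normal p _).comap f
  have hDp : IsPGroup p ↥(D.map (QuotientGroup.mk' (centralizer (V : Set G)))) := by
    obtain ⟨k, hk⟩ := IsPGroup.iff_card.1 (H19.pCore_isPGroup (G := ↥(holHom V).range) p)
    refine IsPGroup.of_card (n := k) ?_
    rw [← relIndex_ker, QuotientGroup.ker_mk', ← holHom_ker, ← (holHom V).ker_rangeRestrict, relIndex_ker, ← hk,
      map_comap_eq_self_of_surjective (holHom V).rangeRestrict_surjective]
  refine H19.le_pCore (hDn.map _ (QuotientGroup.mk'_surjective _)) hDp ⟨a, ?_, rfl⟩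
  change f a ∈ pCore p ↥(holHom V).range
  rwa [show f a = y from Subtype.ext hya.symm]

/-- Action `p`-stability follows from `p`-stability of all sections on elementary abelian normal
subgroups. -/
theorem isActionPStable_of_sections
    (h : ∀ (X : Type u) [Group X] [Finite X] (M : Subgroup G) (f : M →* X), Function.Surjective f →
      ∀ (V : Subgroup X) [V.Normal], IsElementaryAbelian p V → IsPStableOn p V) :
    IsActionPStable p G := by
  haveI hQn : (pCore p G).Normal := H19.pCore_normal p G
  refine ⟨fun V _ hV => h G ⊤ (⊤ : Subgroup G).subtype (fun g => ⟨⟨g, mem_top g⟩, rfl⟩) V hV, ?_, ?_⟩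
  · intro a ha
    set Q := pCore p G
    set Φ := (frattini ↥Q).map Q.subtype
    set π := QuotientGroup.mk' Φ
    set V := Q.map π
    haveI hVn : V.Normal := hQn.map π (QuotientGroup.mk'_surjective Φ)
    obtain ⟨hF1, hF2⟩ := H19.commutator_pow_mem_frattini (H19.pCore_isPGroup (G := G) p)
    have hπ : ∀ q : Q, q ∈ frattini ↥Q → π q = 1 := fun q hq =>
      (QuotientGroup.eq_one_iff _).2 (mem_map_of_mem Q.subtype hq)
    have hVe : IsElementaryAbelian p V := by
      refine ⟨le_centralizer_iff_isMulCommutative.1 ?_, ?_⟩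
      · rintro _ ⟨x, hx, rfl⟩ _ ⟨y, hy, rfl⟩
        have h2 := hπ _ (hF1 (commutator_mem_commutator (mem_top (⟨y, hy⟩ : Q)) (mem_top (⟨x, hx⟩ : Q))))
        rw [← commutatorElement_eq_one_iff_mul_comm, ← map_commutatorElement]
        exact h2
      · rintro _ ⟨x, hx, rfl⟩
        rw [← map_pow]
        exact hπ _ (hF2 ⟨x, hx⟩)
    have hq : ⁅⁅V, zpowers (π a)⁆, zpowers (π a)⁆ = ⊥ := by
      rw [← MonoidHom.map_zpowers, ← map_commutator, ← map_commutator, Subgroup.map_eq_bot_iff,
        QuotientGroup.ker_mk']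
      exact ha
    set C := centralizer (V : Set (G ⧸ Φ))
    set E := (pCore p ((G ⧸ Φ) ⧸ C)).comap (QuotientGroup.mk' C)
    have hstab := h (G ⧸ Φ) ⊤ (π.comp (⊤ : Subgroup G).subtype) (fun x => by
      obtain ⟨g, rfl⟩ := QuotientGroup.mk'_surjective Φ x
      exact ⟨⟨g, mem_top g⟩, rfl⟩) V hVe (π a) hq
    refine ⟨E.comap π, ((H19.pCore_normal p _).comap _).comap π, comap_mono ?_, ?_, hstab⟩
    · intro c hc
      rw [mem_comap, show (QuotientGroup.mk' C) c = 1 from (QuotientGroup.eq_one_iff _).2 hc]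
      exact one_mem _
    · obtain ⟨k, hk⟩ := IsPGroup.iff_card.1 (H19.pCore_isPGroup (G := (G ⧸ Φ) ⧸ C) p)
      refine ⟨k, ?_⟩
      change (C.comap π).relIndex (E.comap π) = _
      rw [relIndex_comap, map_comap_eq_self_of_surjective (QuotientGroup.mk'_surjective Φ),
        ← QuotientGroup.ker_mk' C, relIndex_ker,
        map_comap_eq_self_of_surjective (QuotientGroup.mk'_surjective C), hk]
  · intro S V _ hV
    refine h _ _ (MonoidHom.id _) Function.surjective_id V ?_
    have hZ : IsElementaryAbelian p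
        ((omegaCenterThompson p ↥(S : Subgroup G)).map (S : Subgroup G).subtype) := by
      haveI := isMulCommutative_inf_centralizer (thompsonSubgroup p ↥(S : Subgroup G))
      exact isElementaryAbelian_map omegaOne_isElementaryAbelian _
    have hV' := isElementaryAbelian_mono hZ hV
    refine ⟨le_centralizer_iff_isMulCommutative.1 fun x hx y hy => Subtype.ext ?_, fun x hx => Subtype.ext ?_⟩
    · haveI := hV'.1
      exact setLike_mul_comm (s := V.map (Subgroup.subtype _)) (mem_map_of_mem (Subgroup.subtype _) hy)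
        (mem_map_of_mem (Subgroup.subtype _) hx)
    · exact hV'.2 _ (mem_map_of_mem (Subgroup.subtype _) hx)

end Cfsg.Agent.H34
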