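import Cfsg.Agent.H20.FixedPoints
import Cfsg.Agent.H59.PSolvable
import Cfsg.Agent.H44.TISylow
import Cfsg.Agent.H34.Quotient
import Cfsg.Agent.H34.FixedClosure
import Cfsg.Agent.H34.Linear
import Cfsg.Agent.H34.ComponentAction
import Cfsg.Agent.S0608

/-! Failure of factorisation in a `p`-solvable group with a coprime group of operators. -/

set_option autoImplicit false

namespace Cfsg.Agent.H34

open Subgroup
open Cfsg
open scoped commutatorElement Pointwise

/-- A `p`-solvable normal subgroup `K` with an elementary abelian group of operators of order prime to it. -/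
structure CopExt {Γ : Type*} [Group Γ] (p q : ℕ) (K X : Subgroup Γ) : Prop where
  normal : K.Normal
  elem : IsElementaryAbelian q X
  top : K ⊔ X = ⊤
  prime : q.Prime
  notDvd : ¬ q ∣ Nat.card K
  ne : q ≠ p
  sep : IsPSolvable p ↥K
  core : pPrimeCore p ↥K = ⊥

namespace CopExt

variable {Γ : Type*} [Group Γ] [Finite Γ] {p q : ℕ} [Fact p.Prime] {K X : Subgroup Γ}
  (c : CopExt p q K X)
include c

/-- Every `p`-subgroup lies in `K`. -/
theorem pGroup_le {P : Subgroup Γ} (hP : IsPGroup p P) : P ≤ K := by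
  haveI := c.normal
  intro g hg
  obtain ⟨k, hk⟩ := hP ⟨g, hg⟩
  have hk' : g ^ p ^ k = 1 := congrArg Subtype.val hk
  rw [← QuotientGroup.eq_one_iff (N := K)]
  set π := QuotientGroup.mk' K
  change π g = 1
  obtain ⟨a, ha, b, hb, rfl⟩ := mem_sup_of_normal_left.1 (show g ∈ K ⊔ X from c.top ▸ mem_top g)
  have h1 : orderOf (π (a * b)) ∣ q := by
    refine orderOf_dvd_of_pow_eq_one ?_
    rw [map_mul, show π a = 1 from (QuotientGroup.eq_one_iff a).2 ha, one_mul, ← map_pow, c.elem.2 b hb, map_one]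
  have h2 : orderOf (π (a * b)) ∣ p ^ k := orderOf_dvd_of_pow_eq_one (by rw [← map_pow, hk', map_one])
  have hcop : q.Coprime (p ^ k) := ((Nat.coprime_primes c.prime Fact.out).2 c.ne).pow_right k
  exact orderOf_eq_one_iff.1 (Nat.dvd_one.1 (hcop ▸ Nat.dvd_gcd h1 h2))

/-- `K` contains the Thompson subgroup. -/
theorem thompson_le : thompsonSubgroup p Γ ≤ K :=
  sSup_le fun _ hA => c.pGroup_le (IsPGroup_of_isElementaryAbelian hA.1)

/-- The fixed closure comes from `K`. -/
theorem omegaZ_le : omegaZ p Γ ≤ (omegaZ p ↥K).map K.subtype := by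
  refine iSup_le fun T => ?_
  have hTK : (T : Subgroup Γ) ≤ K := c.pGroup_le T.2
  set T' : Sylow p ↥K := T.subtype hTK
  have hmap : (T' : Subgroup ↥K).map K.subtype = T := by
    rw [Sylow.coe_subtype, subgroupOf_map_subtype, inf_eq_left.2 hTK]
  refine le_trans (le_of_eq ?_) (Subgroup.map_mono (le_iSup _ T'))
  rw [map_omegaCenter_of_inf_ker K.subtype _ (by rw [K.ker_subtype, inf_bot_eq]), hmap]

/-- The fixed closure is elementary abelian. -/
theorem omegaZ_elem : IsElementaryAbelian p (omegaZ p Γ) :=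
  isElementaryAbelian_mono (isElementaryAbelian_map
    (omegaZ_isElementaryAbelian (H59.centralizer_pCore_le_of_isPSolvable c.sep c.core)) _) c.omegaZ_le

/-- The setup for the Thompson subgroup. -/
theorem setup [(omegaZ p Γ).Normal] :
    FFSetup p (holV (omegaZ p Γ)).range ((thompsonSubgroup p Γ).map (holHom (omegaZ p Γ))) := by
  haveI := thompsonSubgroup_characteristic (p := p) (G := Γ)
  refine hol_setup_of_isPSolvable c.omegaZ_elem (thompsonSubgroup p Γ) ?_ fun D hD hp =>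
    le_centralizer_of_generated _ _ D hD omegaZ_le_iSup_fixed le_rfl hp
  exact H84.isPSolvable_of_surjective (subgroupOfEquivOfLe c.thompson_le).toMonoidHom
    (subgroupOfEquivOfLe c.thompson_le).surjective
    (H35.isPSolvable_subgroup c.sep ((thompsonSubgroup p Γ).subgroupOf K))

/-- It is generated by best offenders. -/
theorem gen [(omegaZ p Γ).Normal] :
    (thompsonSubgroup p Γ).map (holHom (omegaZ p Γ)) = ⨆ A : {A : Subgroup (Hol (omegaZ p Γ)) //
      A ≤ (thompsonSubgroup p Γ).map (holHom (omegaZ p Γ)) ∧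
        IsBestOffenderOn p (holV (omegaZ p Γ)).range A}, (A : Subgroup (Hol (omegaZ p Γ))) := by
  set f := holHom (omegaZ p Γ)
  set J := thompsonSubgroup p Γ
  refine le_antisymm ?_ (iSup_le fun A => A.2.1)
  rw [Subgroup.map_le_iff_le_comap]
  refine sSup_le fun A hA => ?_
  rw [← Subgroup.map_le_iff_le_comap]
  have hAJ : A ≤ J := le_sSup hA
  exact le_iSup (fun B : {A : Subgroup (Hol (omegaZ p Γ)) // A ≤ J.map f ∧
    IsBestOffenderOn p (holV (omegaZ p Γ)).range A} => (B : Subgroup (Hol (omegaZ p Γ))))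
    ⟨A.map f, Subgroup.map_mono hAJ, hol_bestOffender c.omegaZ_elem c.setup hAJ hA⟩

/-- The operators act on the setup. -/
theorem action [(omegaZ p Γ).Normal] :
    X.map (holHom (omegaZ p Γ)) ≤ normalizer ((holV (omegaZ p Γ)).range : Set (Hol (omegaZ p Γ))) ∧
      X.map (holHom (omegaZ p Γ)) ≤ normalizer (((thompsonSubgroup p Γ).map (holHom (omegaZ p Γ)) :
        Subgroup (Hol (omegaZ p Γ))) : Set (Hol (omegaZ p Γ))) ∧
      ¬ q ∣ Nat.card ↥((thompsonSubgroup p Γ).map (holHom (omegaZ p Γ))) ∧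
      ∀ x ∈ X.map (holHom (omegaZ p Γ)), x ^ q = 1 := by
  haveI := thompsonSubgroup_characteristic (p := p) (G := Γ)
  refine ⟨hol_map_le_normalizer _ X, ?_, ?_, ?_⟩
  · refine le_trans (Subgroup.map_mono ?_) (Subgroup.le_normalizer_map _)
    exact le_top.trans_eq (normalizer_eq_top_iff.2 inferInstance).symm
  · exact fun h => c.notDvd (h.trans ((Subgroup.card_map_dvd _ _).trans (card_dvd_of_le c.thompson_le)))
  · rintro _ ⟨x, hx, rfl⟩
    rw [← map_pow, c.elem.2 x hx, map_one]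

/-- Elements of the induced group fixed by the operators come from fixed elements of `K`. -/
theorem lift [(omegaZ p Γ).Normal] {d : Hol (omegaZ p Γ)}
    (hd : d ∈ (thompsonSubgroup p Γ).map (holHom (omegaZ p Γ)))
    (hdX : d ∈ centralizer ((X.map (holHom (omegaZ p Γ)) : Subgroup (Hol (omegaZ p Γ))) : Set (Hol (omegaZ p Γ)))) :
    ∃ k ∈ K ⊓ centralizer (X : Set Γ), holHom (omegaZ p Γ) k = d := by
  haveI := c.normal
  set f := holHom (omegaZ p Γ)
  obtain ⟨j, hj, rfl⟩ := hd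
  have hjK : j ∈ K := c.thompson_le hj
  haveI := c.elem.1
  haveI := Fact.mk c.prime
  obtain ⟨m, hm⟩ := IsPGroup.iff_card.1 (IsPGroup_of_isElementaryAbelian c.elem)
  have hcop : (Nat.card X).Coprime (Nat.card ↥(K ⊓ f.ker : Subgroup Γ)) := by
    rw [hm]
    exact ((c.prime.coprime_iff_not_dvd).2 fun h =>
      c.notDvd (h.trans (card_dvd_of_le (inf_le_left : K ⊓ f.ker ≤ K)))).pow_left m
  have hn : X ≤ normalizer ((K ⊓ f.ker : Subgroup Γ) : Set Γ) :=
    le_top.trans_eq (normalizer_eq_top_iff.2 (inferInstance : (K ⊓ f.ker).Normal)).symm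
  obtain ⟨n, hn', hk⟩ := H20.exists_mul_mem_centralizer hn hcop
    (Or.inl (H20.isSolvable_of_isPGroup (IsPGroup_of_isElementaryAbelian c.elem))) (k := j) (fun a ha => mem_inf.2 ⟨
      K.mul_mem (K.inv_mem hjK) (c.normal.conj_mem j hjK a), by
      have h1 : f a * f j = f j * f a := hdX _ (mem_map_of_mem f ha)
      rw [MonoidHom.mem_ker, map_mul, map_mul, map_mul, map_inv, map_inv, h1]
      simp [mul_assoc]⟩)
  refine ⟨j * n, mem_inf.2 ⟨K.mul_mem hjK hn'.1, hk⟩, ?_⟩
  rw [map_mul, (MonoidHom.mem_ker).1 hn'.2, mul_one]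

/-- The factorisation with operators. -/
theorem factorisation (T : Sylow p Γ) :
    K ≤ (normalizer (thompsonSubgroupOf p (T : Subgroup Γ) : Set Γ) ⊓ K) ⊔
      (centralizer (omegaOne p ((T : Subgroup Γ) ⊓ centralizer ((T : Subgroup Γ) : Set Γ)) : Set Γ) ⊓ K) ⊔
      (centralizer (X : Set Γ) ⊓ K) := by
  haveI := c.normal
  haveI hZn : (omegaZ p Γ).Normal := omegaZ_normal
  haveI := thompsonSubgroup_characteristic (p := p) (G := Γ)
  set J := thompsonSubgroup p Γ
  set f := holHom (omegaZ p Γ) with hf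
  set C := centralizer (omegaZ p Γ : Set Γ)
  have hker : f.ker = C := holHom_ker _
  set A₁ := normalizer (thompsonSubgroupOf p (T : Subgroup Γ) : Set Γ) ⊓ K
  set A₂ := centralizer (omegaOne p ((T : Subgroup Γ) ⊓ centralizer ((T : Subgroup Γ) : Set Γ)) : Set Γ) ⊓ K
  set A₃ := centralizer (X : Set Γ) ⊓ K
  set M := A₁ ⊔ A₂ ⊔ A₃
  have hMK : M ≤ K := sup_le (sup_le inf_le_right inf_le_right) inf_le_right
  have hTK : (T : Subgroup Γ) ≤ K := c.pGroup_le T.2
  have hTM : (T : Subgroup Γ) ≤ M := le_trans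
    (le_inf (le_normalizer.trans (normalizer_le_normalizer_thompson _)) hTK)
    (le_sup_left.trans le_sup_left)
  have hCM : C ⊓ K ≤ M := le_trans
    (inf_le_inf_right K (centralizer_le (SetLike.coe_subset_coe.2 (le_iSup
      (fun S : Sylow p Γ => omegaOne p ((S : Subgroup Γ) ⊓ centralizer ((S : Subgroup Γ) : Set Γ))) T))))
    (le_sup_right.trans le_sup_left)
  obtain ⟨hXV, hXH, hqH, hXq⟩ := c.action
  have S := c.setup
  have hgen := c.gen
  have hJM : J.map f ≤ M.map f := by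
    refine (S.le_sSup_transvections hgen).trans (sSup_le fun B hB => ?_)
    refine le_trans (le_sup_right : B ≤ compOf p (J.map f) B) ?_
    have FB := S.compFacts hB
    refine (S.compOf_le_closure hB).trans ((closure_le _).2 ?_)
    rintro y ⟨hy, hyp⟩
    set E := compOf p (J.map f) B
    obtain ⟨P, hP⟩ := H44.exists_sylow_eq_subgroupOf T J
    set P' := P.mapSurjective (f.subgroupMap_surjective J)
    haveI hEn : (E.subgroupOf (J.map f)).Normal :=
      (normal_subgroupOf_iff_le_normalizer FB.le).2 (S.le_normalizer_comp hgen hB).1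
    obtain ⟨R, hR⟩ := H44.exists_sylow_eq_subgroupOf P' (E.subgroupOf (J.map f))
    set y' : E.subgroupOf (J.map f) := ⟨⟨y, FB.le hy⟩, hy⟩
    obtain ⟨R', hR'⟩ := (show IsPGroup p (zpowers y') from
      fun z => ⟨1, Subtype.ext (by
        obtain ⟨i, hi⟩ := mem_zpowers_iff.1 z.2
        rw [pow_one, Subgroup.coe_pow, ← hi, ← zpow_natCast, ← zpow_mul, mul_comm, zpow_mul, zpow_natCast,
          show y' ^ p = 1 from Subtype.ext (Subtype.ext hyp), one_zpow]
        rfl)⟩).exists_le_sylow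
    obtain ⟨e, he⟩ := MulAction.exists_smul_eq (E.subgroupOf (J.map f)) R R'
    have hy' : y' ∈ (R' : Subgroup (E.subgroupOf (J.map f))) := hR' (mem_zpowers y')
    rw [← he, Sylow.coe_subgroup_smul] at hy'
    obtain ⟨s, hs, hse⟩ := hy'
    rw [SetLike.mem_coe, hR, mem_subgroupOf] at hs
    obtain ⟨⟨t, htJ⟩, ht, hts⟩ := hs
    rw [SetLike.mem_coe, hP, mem_subgroupOf] at ht
    set e₀ : Hol (omegaZ p Γ) := ((e : J.map f) : Hol (omegaZ p Γ))
    have he₀ : e₀ ∈ E := e.2
    obtain ⟨r, hrH, hrE, -, hrX⟩ := S.exists_fixed_mul hgen hB _ hXV hXH c.prime hqH hXq he₀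
    obtain ⟨k, hk, hkd⟩ := c.lift ((J.map f).mul_mem (e : J.map f).2 hrH) hrX
    have hy2 : y = e₀ * f t * e₀⁻¹ := by
      have h1 := congrArg (fun z : E.subgroupOf (J.map f) => ((z : J.map f) : Hol (omegaZ p Γ))) hse
      have h2 := congrArg (fun z : J.map f => (z : Hol (omegaZ p Γ))) hts
      change e₀ * ((s : J.map f) : Hol (omegaZ p Γ)) * e₀⁻¹ = y at h1
      change f t = ((s : J.map f) : Hol (omegaZ p Γ)) at h2
      rw [h2, h1]
    have hft : f t ∈ E := by
      have h2 := congrArg (fun z : J.map f => (z : Hol (omegaZ p Γ))) hts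
      change f t = ((s : J.map f) : Hol (omegaZ p Γ)) at h2
      rw [h2]; exact s.2
    have hrt : r * f t * r⁻¹ = f t := by rw [← hrE (f t) hft, mul_inv_cancel_right]
    refine ⟨k * t * k⁻¹, M.mul_mem (M.mul_mem (mem_sup_right (mem_inf.2 ⟨hk.2, hk.1⟩)) (hTM ht))
      (M.inv_mem (mem_sup_right (mem_inf.2 ⟨hk.2, hk.1⟩))), ?_⟩
    rw [map_mul, map_mul, map_inv, hkd, hy2]
    calc e₀ * r * f t * (e₀ * r)⁻¹ = e₀ * (r * f t * r⁻¹) * e₀⁻¹ := by simp [mul_assoc]
      _ = _ := by rw [hrt]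
  set N₀ := (J ⊔ C) ⊓ K
  have hN₀M : N₀ ≤ M := by
    rintro g ⟨hg, hgK⟩
    obtain ⟨j, hj, z, hz, rfl⟩ := mem_sup_of_normal_left.1 hg
    obtain ⟨m, hm, hmj⟩ := hJM (mem_map_of_mem f hj)
    have h1 : m⁻¹ * (j * z) ∈ C ⊓ K := by
      refine mem_inf.2 ⟨?_, K.mul_mem (K.inv_mem (hMK hm)) hgK⟩
      rw [← hker, MonoidHom.mem_ker, map_mul, map_mul, map_inv, hmj,
        show f z = 1 from (hker ▸ hz : z ∈ f.ker), mul_one, inv_mul_cancel]
    have := M.mul_mem hm (hCM h1)
    simpa using this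
  obtain ⟨P, hP⟩ := H44.exists_sylow_eq_subgroupOf T N₀
  have hF := Sylow.normalizer_sup_eq_top (N := N₀) P
  rw [hP, subgroupOf_map_subtype] at hF
  intro g hg
  obtain ⟨n, hn, m, hm, rfl⟩ := mem_sup_of_normal_right.1 (show g ∈ _ ⊔ N₀ from hF ▸ mem_top g)
  refine M.mul_mem (mem_sup_left (mem_sup_left (mem_inf.2 ⟨?_, ?_⟩))) (hN₀M hm)
  · have hle : thompsonSubgroupOf p (T : Subgroup Γ) ≤ (T : Subgroup Γ) ⊓ N₀ := by
      refine le_inf (thompsonSubgroupOf_le _) (le_inf (le_trans ?_ le_sup_left) ((thompsonSubgroupOf_le _).trans hTK))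
      rw [thompsonSubgroupOf_sylow]
      exact sSup_le_sSup fun B hB => hB.2
    have := normalizer_le_normalizer_thompson (p := p) _ hn
    rwa [thompsonSubgroupOf_eq_of_le hle inf_le_left] at this
  · have := K.mul_mem hg (K.inv_mem hm.2)
    simpa using this

/-- The operators fix a plane with a group inducing `SL(2, p)`. -/
theorem fixed_plane (hnf : ¬ IsThompsonFactorizable p ↥K) :
    (p = 2 ∨ p = 3) ∧ ∃ W D : Subgroup Γ, W ≤ K ⊓ centralizer (X : Set Γ) ∧
      D ≤ K ⊓ centralizer (X : Set Γ) ∧ IsElementaryAbelian p W ∧ Nat.card W = p ^ 2 ∧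
      D ≤ normalizer (W : Set Γ) ∧
      ∃ ψ : D →* Matrix.SpecialLinearGroup (Fin 2) (ZMod p), Function.Surjective ψ ∧
        ψ.ker = (centralizer (W : Set Γ)).subgroupOf D := by
  haveI := c.normal
  haveI hZn : (omegaZ p Γ).Normal := omegaZ_normal
  haveI := thompsonSubgroup_characteristic (p := p) (G := Γ)
  set Z := omegaZ p Γ
  set J := thompsonSubgroup p Γ
  set f := holHom Z
  obtain ⟨hXV, hXH, hqH, hXq⟩ := c.action
  have S := c.setup
  have hgen := c.gen
  have hJC : ¬ J ≤ centralizer (Z : Set Γ) := by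
    intro h
    refine hnf ((Cfsg.Agent.S0608.result c.core).2 ?_)
    refine sSup_le fun A hA => ?_
    have hA' : A.map K.subtype ∈ maxElementaryAbelianSubgroups p Γ := by
      refine ⟨isElementaryAbelian_map hA.1 _, fun B hB => ?_⟩
      have hBK : B ≤ K := c.pGroup_le (IsPGroup_of_isElementaryAbelian hB)
      rw [card_map_of_injective K.subtype_injective, ← Nat.card_congr (subgroupOfEquivOfLe hBK).toEquiv]
      refine hA.2 _ ⟨le_centralizer_iff_isMulCommutative.1 fun x hx y hy => Subtype.ext ?_,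
        fun x hx => Subtype.ext (hB.2 _ hx)⟩
      haveI := hB.1
      exact setLike_mul_comm (s := B) hy hx
    intro a ha z hz
    refine Subtype.ext (h (le_sSup hA' (mem_map_of_mem _ ha)) (z : Γ) ?_)
    have hle : (omegaZ p ↥K).map K.subtype ≤ Z := by
      change (omegaZ p ↥K).map K.subtype ≤ omegaZ p Γ
      rw [omegaZ, Subgroup.map_iSup]
      refine iSup_le fun S₁ => ?_
      obtain ⟨T, hT⟩ := (S₁.2.map K.subtype).exists_le_sylow
      refine le_trans (le_of_eq ?_) (le_iSup _ T)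
      have heq : (S₁ : Subgroup ↥K).map K.subtype = T := by
        have hTK : (T : Subgroup Γ) ≤ K := c.pGroup_le T.2
        have h1 : (T : Subgroup Γ).subgroupOf K = S₁ := S₁.3 (T.2.comap_of_injective _ K.subtype_injective)
          fun x hx => hT (mem_map_of_mem _ hx)
        rw [← h1, subgroupOf_map_subtype, inf_eq_left.2 hTK]
      rw [map_omegaCenter_of_inf_ker K.subtype _ (by rw [K.ker_subtype, inf_bot_eq]), heq]
    exact hle (mem_map_of_mem _ hz)
  obtain ⟨A, hA⟩ : ∃ A, IsTransvectionGroup p (holV Z).range (J.map f) A := by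
    by_contra h
    refine hJC ?_
    rw [← holHom_ker, ← Subgroup.map_eq_bot_iff, eq_bot_iff]
    exact (S.le_sSup_transvections hgen).trans (sSup_le fun B hB => absurd ⟨B, hB⟩ h)
  have F := S.compFacts hA
  obtain ⟨W', hW', hcard, hnorm, hcent⟩ := S.exists_fixed_plane hgen hA _ hXV hXH c.prime hqH hXq
  set W := (W'.comap (holV Z)).map Z.subtype
  set D := (J.map f ⊓ centralizer ((X.map f : Subgroup (Hol Z)) : Set (Hol Z))).comap f ⊓
    (K ⊓ centralizer (X : Set Γ))
  have hWmem : ∀ v : Z, (v : Γ) ∈ W ↔ holV Z v ∈ W' := fun v =>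
    ⟨fun ⟨u, hu, huv⟩ => (Subtype.ext huv : u = v) ▸ hu, fun h => ⟨v, h, rfl⟩⟩
  have hWZ : W ≤ Z := map_subtype_le _
  refine ⟨F.prime, W, D, le_inf (hWZ.trans (c.omegaZ_le.trans (map_subtype_le _))) ?_, inf_le_right,
    isElementaryAbelian_mono c.omegaZ_elem hWZ, ?_, ?_, ?_⟩
  · intro w hw x hx
    have hm := (hWmem ⟨w, hWZ hw⟩).1 hw
    have h1 := (hW' hm).2 (f x) (mem_map_of_mem f hx)
    have h2 := hol_conj Z x ⟨w, hWZ hw⟩
    rw [h1, mul_inv_cancel_right] at h2
    have h3 : w = x * w * x⁻¹ := congrArg Subtype.val (SemidirectProduct.inl_injective h2)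
    exact (mul_inv_eq_iff_eq_mul.1 h3.symm)
  · have he : (W'.comap (holV Z)).map (holV Z) = W' := map_comap_eq_self (hW'.trans inf_le_left)
    rw [card_map_of_injective Z.subtype_injective,
      ← card_map_of_injective (K := W'.comap (holV Z)) (f := holV Z) SemidirectProduct.inl_injective]
    exact (congrArg (fun U : Subgroup (Hol Z) => Nat.card U) he).trans hcard
  · intro d hd
    have key : ∀ g : Γ, f g ∈ normalizer (W' : Set (Hol Z)) → ∀ w ∈ W, g * w * g⁻¹ ∈ W := by
      intro g hg w hw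
      refine (hWmem ⟨g * w * g⁻¹, hZn.conj_mem w (hWZ hw) g⟩).2 ?_
      rw [← hol_conj Z g ⟨w, hWZ hw⟩]
      exact (mem_normalizer_iff.1 hg _).1 ((hWmem ⟨w, hWZ hw⟩).1 hw)
    have hfd := hnorm hd.1
    rw [mem_normalizer_iff]
    refine fun w => ⟨key d hfd w, fun h => ?_⟩
    have := key d⁻¹ (by rw [map_inv]; exact inv_mem hfd) _ h
    simpa [mul_assoc] using this
  obtain ⟨hEC, hEC', hsup, -⟩ := S.comp_direct_factor hgen hA
  set E := compOf p (J.map f) A
  set WE := ⁅(holV Z).range, E⁆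
  have hex : ∀ d : D, ∃ e : E, (e : Hol Z)⁻¹ * f d ∈ centralizer (WE : Set (Hol Z)) := by
    intro d
    have h1 : f d ∈ (E : Set (Hol Z)) * ((J.map f ⊓ centralizer (WE : Set (Hol Z)) : Subgroup (Hol Z)) : Set (Hol Z)) := by
      rw [← Subgroup.coe_mul_of_right_le_normalizer_left _ _
        (inf_le_left.trans (S.le_normalizer_comp hgen hA).1), hsup]
      exact d.2.1.1
    obtain ⟨e, he, z, hz, hez⟩ := Set.mem_mul.1 h1
    exact ⟨⟨e, he⟩, by rw [← hez, inv_mul_cancel_left]; exact hz.2⟩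
  choose ρ hρ using hex
  have huniq : ∀ e₁ e₂ : E, (e₁ : Hol Z)⁻¹ * e₂ ∈ centralizer (WE : Set (Hol Z)) → e₁ = e₂ := by
    intro e₁ e₂ h
    have h1 : (e₁ : Hol Z)⁻¹ * e₂ ∈ E ⊓ centralizer (WE : Set (Hol Z)) :=
      mem_inf.2 ⟨E.mul_mem (E.inv_mem e₁.2) e₂.2, h⟩
    rw [F.faithful, mem_bot, inv_mul_eq_one] at h1
    exact Subtype.ext h1
  have hEW : ∀ e : E, (e : Hol Z) ∈ normalizer ((centralizer (WE : Set (Hol Z)) : Subgroup (Hol Z)) : Set (Hol Z)) :=
    fun e => H20.le_normalizer_centralizer (normalizer_commutator_ge_right _ E) e.2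
  have hρu : ∀ (d : D) (e : E), (e : Hol Z)⁻¹ * f d ∈ centralizer (WE : Set (Hol Z)) → ρ d = e := by
    intro d e h
    refine huniq _ _ ?_
    have := mul_mem (hρ d) (inv_mem h)
    simpa [mul_assoc] using this
  let ψ₀ : D →* E :=
    { toFun := ρ
      map_one' := hρu 1 1 (by simp)
      map_mul' := fun d₁ d₂ => hρu _ _ (by
        have h1 := (mem_normalizer_iff''.1 (hEW (ρ d₂)) _).1 (hρ d₁)
        have h2 := mul_mem h1 (hρ d₂)
        simpa [mul_assoc] using h2) }
  obtain ⟨φ⟩ := F.iso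
  refine ⟨φ.toMonoidHom.comp ψ₀, φ.surjective.comp ?_, ?_⟩
  · intro e
    obtain ⟨r, hrH, -, hrW, hrX⟩ := S.exists_fixed_mul hgen hA _ hXV hXH c.prime hqH hXq e.2
    obtain ⟨k, hk, hkd⟩ := c.lift ((J.map f).mul_mem (F.le e.2) hrH) hrX
    refine ⟨⟨k, mem_inf.2 ⟨?_, hk⟩⟩, hρu _ _ ?_⟩
    · rw [mem_comap, hkd]
      exact mem_inf.2 ⟨(J.map f).mul_mem (F.le e.2) hrH, hrX⟩
    · change (e : Hol Z)⁻¹ * f k ∈ _
      rw [hkd, inv_mul_cancel_left]
      exact hrW
  · ext d
    rw [MonoidHom.mem_ker, MonoidHom.comp_apply, MulEquiv.coe_toMonoidHom, MulEquiv.map_eq_one_iff,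
      mem_subgroupOf]
    have hW2 : (d : Γ) ∈ centralizer (W : Set Γ) ↔ f d ∈ centralizer (W' : Set (Hol Z)) := by
      constructor
      · intro h u hu
        obtain ⟨v, rfl⟩ := (hW'.trans inf_le_left) hu
        have h1 := h (v : Γ) ((hWmem v).2 hu)
        have h2 := hol_conj Z (d : Γ) v
        rw [show (⟨(d : Γ) * v * (d : Γ)⁻¹, hZn.conj_mem v v.2 d⟩ : Z) = v from
          Subtype.ext (by change (d : Γ) * v * (d : Γ)⁻¹ = v; rw [← h1, mul_inv_cancel_right])] at h2
        exact (mul_inv_eq_iff_eq_mul.1 h2).symm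
      · intro h w hw
        have h1 := h _ ((hWmem ⟨w, hWZ hw⟩).1 hw)
        have h2 := hol_conj Z (d : Γ) ⟨w, hWZ hw⟩
        rw [← h1, mul_inv_cancel_right] at h2
        have h3 : w = (d : Γ) * w * (d : Γ)⁻¹ := congrArg Subtype.val (SemidirectProduct.inl_injective h2)
        exact (mul_inv_eq_iff_eq_mul.1 h3.symm).symm
    rw [hW2, hcent _ d.2.1]
    constructor
    · intro h
      have h1 := hρ d
      change ρ d = 1 at h
      rw [h] at h1
      simpa using h1
    · intro h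
      exact hρu d 1 (by simpa using h)

end CopExt

end Cfsg.Agent.H34
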