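import Cfsg.Agent.H34.CoprimeExtension

/-! From a subgroup with normalising operators to the extension by them. -/

set_option autoImplicit false

namespace Cfsg.Agent.H34

open Subgroup
open Cfsg
open scoped commutatorElement Pointwise

variable {G : Type*} [Group G] [Finite G] {p q : ℕ} [Fact p.Prime]

/-- A group with trivial `p'`-core and order prime to `p` is trivial. -/
theorem subsingleton_of_pPrimeCore {A : Type*} [Group A] [Finite A] (hO : pPrimeCore p A = ⊥)
    (h : ¬ p ∣ Nat.card A) : Subsingleton A := by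
  have h1 : (⊤ : Subgroup A) ≤ pPrimeCore p A :=
    H19.le_pPrimeCore inferInstance (by
      rw [Subgroup.card_top]; exact ((Nat.Prime.coprime_iff_not_dvd Fact.out).2 h).symm)
  rw [hO, le_bot_iff] at h1
  exact ⟨fun a b => by
    rw [(mem_bot (x := a)).1 (h1 ▸ mem_top a), (mem_bot (x := b)).1 (h1 ▸ mem_top b)]⟩

/-- The extension by the operators. -/
theorem copExt_subgroupOf [Fact q.Prime] (K X : Subgroup G) (hXK : X ≤ normalizer (K : Set G))
    (hX : IsElementaryAbelian q X) (hq : ¬ q ∣ Nat.card K) (hne : q ≠ p) (hsep : IsPSolvable p ↥K)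
    (hO : pPrimeCore p ↥K = ⊥) :
    CopExt p q (K.subgroupOf (K ⊔ X)) (X.subgroupOf (K ⊔ X)) := by
  set e := subgroupOfEquivOfLe (le_sup_left : K ≤ K ⊔ X)
  refine ⟨(normal_subgroupOf_iff_le_normalizer le_sup_left).2 (sup_le le_normalizer hXK), ⟨?_, ?_⟩, ?_,
    Fact.out, ?_, hne, H84.isPSolvable_of_surjective e.symm.toMonoidHom e.symm.surjective hsep, ?_⟩
  · haveI := hX.1
    exact le_centralizer_iff_isMulCommutative.1 fun x hx y hy => Subtype.ext (setLike_mul_comm (s := X) hy hx)
  · exact fun x hx => Subtype.ext (hX.2 _ hx)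
  · rw [← subgroupOf_sup le_sup_left le_sup_right, subgroupOf_self]
  · rwa [Nat.card_congr e.toEquiv]
  · rw [eq_bot_iff]
    intro x hx
    have hn := H19.pPrimeCore_normal p ↥(K.subgroupOf (K ⊔ X))
    have h1 : (pPrimeCore p ↥(K.subgroupOf (K ⊔ X))).map e.toMonoidHom ≤ pPrimeCore p ↥K :=
      H19.le_pPrimeCore (hn.map _ e.surjective) (by
        rw [card_map_of_injective e.injective]; exact H19.pPrimeCore_coprime p)
    have h2 := h1 (mem_map_of_mem _ hx)
    rw [hO, mem_bot] at h2
    exact mem_bot.2 (e.injective (h2.trans (map_one e).symm))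

/-- Factorisability is preserved by isomorphisms between groups with trivial `p'`-core. -/
theorem isThompsonFactorizable_of_equiv {A B : Type*} [Group A] [Group B] [Finite A] [Finite B] (e : A ≃* B)
    (h : IsThompsonFactorizable p A) (hA : pPrimeCore p A = ⊥) :
    IsThompsonFactorizable p B := by
  intro S g
  set S' : Sylow p A := S.comapOfInjective e.toMonoidHom e.injective (fun x _ => ⟨e.symm x, e.apply_symm_apply x⟩)
  have hmap : (S' : Subgroup A).map e.toMonoidHom = S :=
    map_comap_eq_self_of_surjective e.surjective _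
  obtain ⟨x, hx, c, hc, n, hn, he⟩ := h S' (e.symm g)
  rw [hA, mem_bot] at hx
  refine ⟨1, one_mem _, e c, ?_, e n, ?_, ?_⟩
  · rw [← hmap, ← map_omegaCenter_of_inf_ker e.toMonoidHom _ (by
      rw [(MonoidHom.ker_eq_bot_iff _).2 e.injective, inf_bot_eq])]
    rintro _ ⟨u, hu, rfl⟩
    change e u * e c = e c * e u
    rw [← map_mul, ← map_mul, hc u hu]
  · rw [← hmap, ← map_thompsonSubgroupOf e]
    exact le_normalizer_map e.toMonoidHom (mem_map_of_mem _ hn)
  · have h1 := congrArg e he
    rw [e.apply_symm_apply, hx, one_mul, map_mul] at h1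
    rw [h1, one_mul]

end Cfsg.Agent.H34
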