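import Mathlib.LinearAlgebra.Eigenspace.Minpoly
import Mathlib.LinearAlgebra.Matrix.ToLin
import Mathlib.LinearAlgebra.Matrix.SpecialLinearGroup
import Mathlib.FieldTheory.IsAlgClosed.AlgebraicClosure
import Mathlib.Algebra.Module.ZMod
import Mathlib.FieldTheory.Finite.Basic
import Cfsg.Prelude.Def_PLocal

/-! Representations of groups generated by two quadratic elements have two-dimensional pieces. -/

set_option autoImplicit false

namespace Cfsg.Agent.H34.QuadRep

open Matrix Polynomial
open scoped commutatorElement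

universe w

variable {K : Type*} [Field K] {p : ℕ} [Fact p.Prime] [CharP K p]

/-- Quadratic elements of an algebra in characteristic `p` have order dividing `p`. -/
theorem pow_char_eq_one_of_sq {R : Type*} [Ring R] [Algebra K R] {g : R}
    (hg : (g - 1) * (g - 1) = 0) : g ^ p = 1 := by
  have key : ∀ n : ℕ, g ^ n = 1 + n • (g - 1) := by
    intro n
    induction n with
    | zero => simp
    | succ n ih =>
      rw [pow_succ, ih, add_smul, one_smul]
      have : (g - 1) * g = g - 1 := by
        calc (g - 1) * g = (g - 1) * (g - 1) + (g - 1) := by noncomm_ring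
          _ = g - 1 := by rw [hg, zero_add]
      rw [add_mul, one_mul, smul_mul_assoc, this]
      abel
  rw [key p, ← Nat.cast_smul_eq_nsmul K, CharP.cast_eq_zero, zero_smul, add_zero]

variable {H : Type*} [Group H] [Finite H]

/-- The elements mapping a subspace into itself. -/
theorem mem_of_closure {W : Type*} [AddCommGroup W] [Module K W] (ρ : H →* Module.End K W)
    (U : Submodule K W) {a b : H} (hgen : Subgroup.closure {a, b} = ⊤)
    (ha : ∀ u ∈ U, ρ a u ∈ U) (hb : ∀ u ∈ U, ρ b u ∈ U) (h : H) : ∀ u ∈ U, ρ h u ∈ U := by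
  have h1 : h ∈ Submonoid.closure ({a, b} : Set H) := by
    rw [← Subgroup.closure_toSubmonoid_of_finite, hgen]; trivial
  induction h1 using Submonoid.closure_induction with
  | mem x hx => rcases hx with rfl | rfl <;> assumption
  | one => simp
  | mul x y _ _ hx hy => intro u hu; rw [map_mul]; exact hx _ (hy u hu)

omit [Finite H] in
/-- A quadratic element acts as the identity on a line it preserves. -/
theorem apply_eq_self_of_line {W : Type*} [AddCommGroup W] [Module K W] {g : Module.End K W}
    (hg : (g - 1) * (g - 1) = 0) {x : W} {s : K} (hx : (g - 1) x = s • x) : g x = x := by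
  have h : (g - 1) ((g - 1) x) = 0 := by rw [← Module.End.mul_apply, hg]; rfl
  rw [hx, map_smul, hx, smul_smul] at h
  rcases smul_eq_zero.1 h with h | h
  · rw [mul_self_eq_zero] at h
    rw [h, zero_smul, LinearMap.sub_apply, sub_eq_zero] at hx
    exact hx
  · rw [h, map_zero]

/-- An invariant subspace of dimension at most two. -/
theorem exists_plane {W : Type*} [AddCommGroup W] [Module K W] [FiniteDimensional K W] [Nontrivial W]
    {N : ℕ} (hN0 : 0 < N) (hN : ((X : K[X]) ^ N - 1).Splits)
    (ρ : H →* Module.End K W) {a b : H} (hgen : Subgroup.closure {a, b} = ⊤)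
    (hab : (a * b) ^ N = 1) (ha : (ρ a - 1) * (ρ a - 1) = 0) (hb : (ρ b - 1) * (ρ b - 1) = 0) :
    ∃ (U : Submodule K W) (x y : W), x ≠ 0 ∧ U = Submodule.span K (Set.range ![x, y]) ∧
      ∀ h : H, ∀ u ∈ U, ρ h u ∈ U := by
  set A := ρ a - 1 with hA
  set B := ρ b - 1 with hB
  have hinv : ∀ g : H, (ρ g - 1) * (ρ g - 1) = 0 → ρ g⁻¹ = 1 - (ρ g - 1) := by
    intro g hg
    have h1 : ρ g⁻¹ * ρ g = 1 := by rw [← map_mul, inv_mul_cancel, map_one]
    have h2 : ρ g * (1 - (ρ g - 1)) = 1 := by
      calc ρ g * (1 - (ρ g - 1)) = 1 - (ρ g - 1) * (ρ g - 1) := by noncomm_ring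
        _ = 1 := by rw [hg, sub_zero]
    calc ρ g⁻¹ = ρ g⁻¹ * (ρ g * (1 - (ρ g - 1))) := by rw [h2, mul_one]
      _ = _ := by rw [← mul_assoc, h1, one_mul]
  set C := A * B + B * A with hC
  have hCA : C * A = A * C := by
    simp only [hC, add_mul, mul_add, mul_assoc]
    rw [ha, mul_zero, ← mul_assoc A A B, ha, zero_mul]
    abel
  have hCab : ρ (a * b) + ρ (b⁻¹ * a⁻¹) = 2 • (1 : Module.End K W) + C := by
    rw [map_mul, map_mul, hinv a ha, hinv b hb, hC, hA, hB]
    noncomm_ring
  obtain ⟨μ, hμ⟩ : ∃ μ, (ρ (a * b)).HasEigenvalue μ := by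
    have hint : IsIntegral K (ρ (a * b)) := Algebra.IsIntegral.isIntegral _
    have hdvd : minpoly K (ρ (a * b)) ∣ ((X : K[X]) ^ N - 1) :=
      minpoly.dvd K _ (by simp only [map_sub, map_pow, aeval_X, map_one]; rw [← map_pow, hab, map_one, sub_self])
    obtain ⟨μ, hμ⟩ := (hN.of_dvd (X_pow_sub_C_ne_zero hN0 1) hdvd).exists_eval_eq_zero
      (minpoly.degree_pos hint).ne'
    exact ⟨μ, Module.End.hasEigenvalue_of_isRoot hμ⟩
  obtain ⟨u, hu⟩ := hμ.exists_hasEigenvector
  have hgu : ρ (a * b) u = μ • u := Module.End.mem_eigenspace_iff.1 hu.1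
  have hu' : ρ (b⁻¹ * a⁻¹) (ρ (a * b) u) = u := by
    rw [← Module.End.mul_apply, ← map_mul, show b⁻¹ * a⁻¹ * (a * b) = 1 by simp [mul_assoc], map_one]
    rfl
  have hμ0 : μ ≠ 0 := by
    rintro rfl
    rw [hgu, zero_smul, map_zero] at hu'
    exact hu.2 hu'.symm
  have hgu' : ρ (b⁻¹ * a⁻¹) u = μ⁻¹ • u := by
    rw [hgu, map_smul] at hu'
    conv_rhs => rw [← hu', smul_smul, inv_mul_cancel₀ hμ0, one_smul]
  set c := μ + μ⁻¹ - 2
  have hCu : C u = c • u := by
    have h := LinearMap.congr_fun hCab u
    simp only [LinearMap.add_apply, LinearMap.smul_apply, Module.End.one_apply, hgu, hgu'] at h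
    rw [show C u = μ • u + μ⁻¹ • u - 2 • u by rw [h]; abel]
    simp only [c, sub_smul, add_smul]
    norm_num [two_smul]
  obtain ⟨x, hx0, hAx, hCx⟩ : ∃ x, x ≠ 0 ∧ A x = 0 ∧ C x = c • x := by
    by_cases hAu : A u = 0
    · exact ⟨u, hu.2, hAu, hCu⟩
    · refine ⟨A u, hAu, ?_, ?_⟩
      · rw [← Module.End.mul_apply, ha]; rfl
      · rw [← Module.End.mul_apply, hCA, Module.End.mul_apply, hCu, map_smul]
  refine ⟨_, x, B x, hx0, rfl, mem_of_closure ρ _ hgen ?_ ?_⟩
  · intro v hv
    have hAB : A (B x) = c • x := by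
      have h := hCx
      simp only [hC, LinearMap.add_apply, Module.End.mul_apply, hAx, map_zero, add_zero] at h
      exact h
    have hle : Submodule.span K (Set.range ![x, B x]) ≤
        (Submodule.span K (Set.range ![x, B x])).comap A := by
      rw [Submodule.span_le]
      rintro _ ⟨i, rfl⟩
      fin_cases i
      · simp [hAx]
      · show A (B x) ∈ Submodule.span K (Set.range ![x, B x])
        rw [hAB]
        exact Submodule.smul_mem _ _ (Submodule.subset_span ⟨0, rfl⟩)
    have : ρ a v = A v + v := by simp [hA]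
    rw [this]
    exact add_mem (hle hv) hv
  · intro v hv
    have hBB : B (B x) = 0 := by rw [← Module.End.mul_apply, hb]; rfl
    have hle : Submodule.span K (Set.range ![x, B x]) ≤
        (Submodule.span K (Set.range ![x, B x])).comap B := by
      rw [Submodule.span_le]
      rintro _ ⟨i, rfl⟩
      fin_cases i
      · exact Submodule.subset_span ⟨1, rfl⟩
      · simp [hBB]
    have : ρ b v = B v + v := by simp [hB]
    rw [this]
    exact add_mem (hle hv) hv

/-- Selecting a two-dimensional piece on which a given element is not a `p`-element. -/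
theorem exists_sl2_hom {N : ℕ} (hN0 : 0 < N) (hN : ((X : K[X]) ^ N - 1).Splits) {a b : H}
    (hgen : Subgroup.closure {a, b} = ⊤) (hab : (a * b) ^ N = 1) (h₀ : H) :
    ∀ (W : Type w) [AddCommGroup W] [Module K W] [FiniteDimensional K W]
      (ρ : H →* Module.End K W), (ρ a - 1) * (ρ a - 1) = 0 → (ρ b - 1) * (ρ b - 1) = 0 →
      (∀ n : ℕ, ρ h₀ ^ p ^ n ≠ 1) →
      ∃ φ : H →* SpecialLinearGroup (Fin 2) K, φ a ^ p = 1 ∧ φ b ^ p = 1 ∧ ∀ n : ℕ, φ h₀ ^ p ^ n ≠ 1 := by
  intro W _ _ _
  induction hd : Module.finrank K W using Nat.strong_induction_on generalizing W with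
  | _ d ih =>
  intro ρ ha hb hnp
  have : Nontrivial W := by
    by_contra h
    rw [not_nontrivial_iff_subsingleton] at h
    exact hnp 0 (LinearMap.ext fun v => Subsingleton.elim _ _)
  obtain ⟨U, x, y, hx, hU, hinv⟩ := exists_plane hN0 hN ρ hgen hab ha hb
  have hxU : x ∈ U := hU ▸ Submodule.subset_span ⟨0, rfl⟩
  let ρU : H →* Module.End K U :=
    { toFun := fun h => (ρ h).restrict (hinv h)
      map_one' := LinearMap.ext fun v => Subtype.ext (by simp)
      map_mul' := fun g h => LinearMap.ext fun v => Subtype.ext (by simp) }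
  have hquad : ∀ g : H, (ρ g - 1) * (ρ g - 1) = 0 → (ρU g - 1) * (ρU g - 1) = 0 := fun g hg =>
    LinearMap.ext fun v => Subtype.ext (LinearMap.congr_fun hg (v : W))
  by_cases hcase : ∀ n : ℕ, ρU h₀ ^ p ^ n ≠ 1
  · have hUle : Module.finrank K U ≤ 2 := by
      rw [hU]
      exact (finrank_range_le_card _).trans (by simp)
    have hU2 : Module.finrank K U = 2 := by
      refine le_antisymm hUle ?_
      by_contra hlt
      have hspan : Submodule.span K {x} = U := by
        refine Submodule.eq_of_le_of_finrank_le ((Submodule.span_singleton_le_iff_mem _ _).2 hxU) ?_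
        rw [finrank_span_singleton hx]
        omega
      have hfix : ∀ g : H, (ρ g - 1) * (ρ g - 1) = 0 → ρ g x = x := by
        intro g hg
        have hm : (ρ g - 1) x ∈ Submodule.span K {x} := by
          rw [hspan]; exact sub_mem (hinv g x hxU) hxU
        obtain ⟨s, hs⟩ := Submodule.mem_span_singleton.1 hm
        exact apply_eq_self_of_line hg hs.symm
      have hfa := hfix a ha
      have hfb := hfix b hb
      have hall : ∀ g : H, ρ g x = x := by
        intro g
        have h1 : g ∈ Submonoid.closure ({a, b} : Set H) := by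
          rw [← Subgroup.closure_toSubmonoid_of_finite, hgen]; trivial
        induction h1 using Submonoid.closure_induction with
        | mem z hz => rcases hz with rfl | rfl <;> assumption
        | one => simp
        | mul z w _ _ hz hw => rw [map_mul, Module.End.mul_apply, hw, hz]
      refine hcase 0 ?_
      rw [pow_zero, pow_one]
      refine LinearMap.ext fun v => Subtype.ext ?_
      obtain ⟨s, hs⟩ := Submodule.mem_span_singleton.1 (hspan ▸ v.2 : (v : W) ∈ Submodule.span K {x})
      change ρ h₀ (v : W) = (v : W)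
      rw [← hs, map_smul, hall]
    let bs := Module.finBasisOfFinrankEq K U hU2
    let M : H →* Matrix (Fin 2) (Fin 2) K :=
      { toFun := fun h => LinearMap.toMatrixAlgEquiv bs (ρU h)
        map_one' := by rw [map_one, map_one]
        map_mul' := fun g h => by rw [map_mul, map_mul] }
    have hMp : ∀ g : H, (ρ g - 1) * (ρ g - 1) = 0 → M g ^ p = 1 := by
      intro g hg
      have h := congrArg (LinearMap.toMatrixAlgEquiv bs) (hquad g hg)
      simp only [map_mul, map_sub, map_one, map_zero] at h
      exact pow_char_eq_one_of_sq (K := K) h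
    have hdet : ∀ g : H, (M g).det = 1 := by
      let dM : H →* K := Matrix.detMonoidHom.comp M
      have h1 : ∀ g : H, M g ^ p = 1 → dM g = 1 := fun g hg => by
        have h := congrArg Matrix.det hg
        rw [Matrix.det_pow, Matrix.det_one] at h
        exact frobenius_inj K p (by rw [frobenius_def, frobenius_def, one_pow]; exact h)
      intro g
      have h2 : g ∈ Submonoid.closure ({a, b} : Set H) := by
        rw [← Subgroup.closure_toSubmonoid_of_finite, hgen]; trivial
      change dM g = 1
      induction h2 using Submonoid.closure_induction with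
      | mem z hz => rcases hz with rfl | rfl <;> [exact h1 _ (hMp _ ha); exact h1 _ (hMp _ hb)]
      | one => simp
      | mul z w _ _ hz hw => rw [map_mul, hz, hw, one_mul]
    refine ⟨{ toFun := fun h => ⟨M h, hdet h⟩, map_one' := Subtype.ext (map_one M),
              map_mul' := fun g h => Subtype.ext (map_mul M g h) }, ?_, ?_, fun n hn => hcase n ?_⟩
    · refine Subtype.ext ?_
      exact (map_pow (SpecialLinearGroup.coeMonoidHom : SpecialLinearGroup (Fin 2) K →* _) _ p).trans (hMp a ha)
    · refine Subtype.ext ?_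
      exact (map_pow (SpecialLinearGroup.coeMonoidHom : SpecialLinearGroup (Fin 2) K →* _) _ p).trans (hMp b hb)
    · have h := congrArg (fun g : SpecialLinearGroup (Fin 2) K => SpecialLinearGroup.coeMonoidHom g) hn
      simp only [map_pow, map_one] at h
      apply (LinearMap.toMatrixAlgEquiv bs).injective
      rw [map_pow, map_one]
      exact h
  · obtain ⟨n, hn⟩ : ∃ n, ρU h₀ ^ p ^ n = 1 := by
      by_contra hne
      exact hcase fun n hn => hne ⟨n, hn⟩
    let ρQ : H →* Module.End K (W ⧸ U) :=
      { toFun := fun h => U.mapQ U (ρ h) (fun u hu => hinv h u hu)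
        map_one' := Submodule.linearMap_qext _ (LinearMap.ext fun v => by simp)
        map_mul' := fun g h => Submodule.linearMap_qext _ (LinearMap.ext fun v => by simp) }
    have hquadQ : ∀ g : H, (ρ g - 1) * (ρ g - 1) = 0 → (ρQ g - 1) * (ρQ g - 1) = 0 := fun g hg =>
      Submodule.linearMap_qext _ (LinearMap.ext fun v => by
        have h := congrArg (Submodule.mkQ U) (LinearMap.congr_fun hg v)
        simp [ρQ] at h ⊢
        exact h)
    have hlt : Module.finrank K (W ⧸ U) < d := by
      have h1 := U.finrank_quotient_add_finrank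
      have h2 : 0 < Module.finrank K U := Module.finrank_pos_iff_exists_ne_zero.2
        ⟨⟨x, hxU⟩, fun h => hx (congrArg Subtype.val h)⟩
      omega
    refine ih _ hlt (W ⧸ U) rfl ρQ (hquadQ a ha) (hquadQ b hb) fun m hm => ?_
    set g := ρ (h₀ ^ p ^ (n + m)) with hg
    have hgU : ∀ v ∈ U, g v = v := by
      intro v hv
      have h1 : ρU (h₀ ^ p ^ (n + m)) = 1 := by
        rw [map_pow, pow_add, pow_mul, hn, one_pow]
      exact congrArg Subtype.val (LinearMap.congr_fun h1 ⟨v, hv⟩)
    have hgQ : ∀ v : W, g v - v ∈ U := by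
      intro v
      have h1 : ρQ (h₀ ^ p ^ (n + m)) = 1 := by
        rw [map_pow, pow_add, mul_comm, pow_mul, hm, one_pow]
      have h2 := LinearMap.congr_fun h1 (Submodule.Quotient.mk v)
      rw [← Submodule.Quotient.eq]
      exact h2
    have hg2 : (g - 1) * (g - 1) = 0 := LinearMap.ext fun v => by
      rw [Module.End.mul_apply]
      simp only [LinearMap.sub_apply, Module.End.one_apply, LinearMap.zero_apply]
      rw [hgU _ (hgQ v), sub_self]
    refine hnp (n + m + 1) ?_
    have h3 := pow_char_eq_one_of_sq (K := K) (p := p) hg2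
    rwa [hg, map_pow, ← pow_mul, ← pow_succ] at h3

omit [CharP K p] in
/-- The matrix representation of a normaliser on an elementary abelian subgroup. -/
theorem exists_matrix_rep {G : Type*} [Group G] [Finite G] (V H' : Subgroup G)
    (hV : Cfsg.IsElementaryAbelian p V) (hHV : H' ≤ Subgroup.normalizer (V : Set G))
    (hf : H' ⊓ Subgroup.centralizer (V : Set G) = ⊥) :
    ∃ (n : ℕ) (ρ : H' →* Matrix (Fin n) (Fin n) (ZMod p)), Function.Injective ρ ∧
      ∀ a : H', ⁅⁅V, Subgroup.zpowers (a : G)⁆, Subgroup.zpowers (a : G)⁆ = ⊥ →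
        (ρ a - 1) * (ρ a - 1) = 0 := by
  letI : CommGroup V := { (inferInstance : Group V) with
    mul_comm := fun x y => haveI := hV.1; Subtype.ext (setLike_mul_comm (s := V) x.2 y.2) }
  letI : Module (ZMod p) (Additive V) :=
    AddCommGroup.zmodModule (n := p) fun w => Subtype.ext (hV.2 _ w.toMul.2)
  haveI : Finite (Additive V) := Finite.of_equiv _ Additive.ofMul
  haveI : Module.Finite (ZMod p) (Additive V) := Module.Finite.of_finite
  let c : H' →* Module.End (ZMod p) (Additive V) :=
    { toFun := fun h => ((V.normalizerMonoidHom (Subgroup.inclusion hHV h)).toMonoidHom.toAdditive).toZModLinearMap p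
      map_one' := LinearMap.ext fun w => by simp
      map_mul' := fun g h => LinearMap.ext fun w => by simp }
  let bs := Module.finBasis (ZMod p) (Additive V)
  have hc : ∀ (h : H') (v : V), (((c h (Additive.ofMul v)).toMul : V) : G) = (h : G) * v * (h : G)⁻¹ :=
    fun _ _ => rfl
  let M : H' →* Matrix (Fin (Module.finrank (ZMod p) (Additive V)))
      (Fin (Module.finrank (ZMod p) (Additive V))) (ZMod p) :=
    { toFun := fun h => LinearMap.toMatrixAlgEquiv bs (c h)
      map_one' := by rw [map_one, map_one]
      map_mul' := fun g h => by rw [map_mul, map_mul] }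
  refine ⟨_, M, ?_, fun a ha => ?_⟩
  · intro g h hgh
    have h1 : c g = c h := (LinearMap.toMatrixAlgEquiv bs).injective hgh
    refine Subtype.ext (inv_mul_eq_one.1 (Subgroup.mem_bot.1 ?_)).symm
    rw [← hf]
    refine Subgroup.mem_inf.2 ⟨mul_mem (inv_mem h.2) g.2, Subgroup.mem_centralizer_iff.2 fun v hv => ?_⟩
    have h2 := congrArg (fun f : Additive V => ((f.toMul : V) : G))
      (LinearMap.congr_fun h1 (Additive.ofMul ⟨v, hv⟩))
    simp only [hc] at h2
    calc v * ((h : G)⁻¹ * g) = (h : G)⁻¹ * ((h : G) * v * (h : G)⁻¹) * g := by simp [mul_assoc]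
      _ = (h : G)⁻¹ * ((g : G) * v * (g : G)⁻¹) * g := by rw [h2]
      _ = _ := by simp [mul_assoc]
  · have h0 : (c a - 1) * (c a - 1) = 0 := by
      refine LinearMap.ext fun w => ?_
      have hv : ∀ v : V, (a : G) * ((a : G) * v * (a : G)⁻¹ * (v : G)⁻¹) * (a : G)⁻¹ =
          (a : G) * v * (a : G)⁻¹ * (v : G)⁻¹ := by
        intro v
        have hm : ⁅(a : G), (v : G)⁆ ∈ ⁅V, Subgroup.zpowers (a : G)⁆ := by
          rw [Subgroup.commutator_comm]
          exact Subgroup.commutator_mem_commutator (Subgroup.mem_zpowers _) v.2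
        have h1 := Subgroup.commutator_eq_bot_iff_le_centralizer.1 ha hm (a : G) (Subgroup.mem_zpowers _)
        rw [commutatorElement_def] at h1
        rw [h1, mul_inv_cancel_right]
      set v : V := w.toMul with hv_def
      have hw : w = Additive.ofMul v := rfl
      have h := hv v
      have h4 := hc a ((c a w).toMul)
      rw [ofMul_toMul] at h4
      have h5 := hc a v
      rw [← hw] at h5
      apply Additive.toMul.injective
      apply Subtype.ext
      simp only [Module.End.mul_apply, LinearMap.sub_apply, Module.End.one_apply, map_sub, toMul_sub,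
        Subgroup.coe_div, LinearMap.zero_apply, toMul_zero, OneMemClass.coe_one]
      rw [h4, h5, div_eq_one, div_eq_mul_inv, div_eq_mul_inv]
      refine Eq.trans ?_ h
      simp [mul_assoc]
    have h := congrArg (LinearMap.toMatrixAlgEquiv bs) h0
    simp only [map_mul, map_sub, map_one, map_zero] at h
    exact h

end Cfsg.Agent.H34.QuadRep
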