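import Mathlib.FieldTheory.IsAlgClosed.Basic
import Cfsg.Agent.H1.SLTwoElements
import Cfsg.Agent.H20.Sylow
import Cfsg.Agent.H21.FrobeniusTheorem

/-! Finite subgroups of `SL₂` in characteristic `p` containing two non-commuting elements of order `p`. -/

set_option autoImplicit false

namespace Cfsg.Agent.H34.SL2U

open Matrix

variable {K : Type*} [Field K]

/-- `x` is an eigenvector of `g` with value `c`. -/
def Eig (g : SpecialLinearGroup (Fin 2) K) (x : Fin 2 → K) (c : K) : Prop :=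
  (g : Matrix (Fin 2) (Fin 2) K) *ᵥ x = c • x

/-- Two vectors are independent. -/
def Indep (x y : Fin 2 → K) : Prop := x 0 * y 1 - x 1 * y 0 ≠ 0

variable {g h : SpecialLinearGroup (Fin 2) K} {x y v : Fin 2 → K} {c d e : K}

/-- Coordinates with respect to two independent vectors. -/
theorem exists_coords (hi : Indep x y) (v : Fin 2 → K) : ∃ s t : K, v = s • x + t • y := by
  unfold Indep at hi
  refine ⟨(v 0 * y 1 - v 1 * y 0) / (x 0 * y 1 - x 1 * y 0),
    (x 0 * v 1 - x 1 * v 0) / (x 0 * y 1 - x 1 * y 0), ?_⟩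
  ext i
  fin_cases i <;> simp only [Fin.zero_eta, Fin.mk_one, Pi.add_apply, Pi.smul_apply, smul_eq_mul] <;>
    rw [div_mul_eq_mul_div, div_mul_eq_mul_div, ← add_div, eq_div_iff hi] <;> ring

/-- A vector not independent of `x ≠ 0` is a multiple of it. -/
theorem exists_smul_of_not_indep (hx : x ≠ 0) (hi : ¬ Indep x y) : ∃ s : K, y = s • x := by
  have h' : x 0 * y 1 - x 1 * y 0 = 0 := not_not.1 hi
  by_cases h0 : x 0 = 0
  · have h1 : x 1 ≠ 0 := fun h1 => hx (by ext i; fin_cases i <;> simp [h0, h1])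
    have hy0 : y 0 = 0 := by
      rw [h0] at h'
      simpa [h1] using h'
    exact ⟨y 1 / x 1, by ext i; fin_cases i <;> simp [h0, hy0, h1]⟩
  · refine ⟨y 0 / x 0, ?_⟩
    ext i
    fin_cases i
    · simp [h0]
    · simp only [Fin.mk_one, Pi.smul_apply, smul_eq_mul]
      field_simp
      linear_combination h'

theorem indep_ne_zero_left (hi : Indep x y) : x ≠ 0 := by
  rintro rfl; simp [Indep] at hi

theorem indep_ne_zero_right (hi : Indep x y) : y ≠ 0 := by
  rintro rfl; simp [Indep] at hi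

theorem indep_symm (hi : Indep x y) : Indep y x := by
  unfold Indep at *
  intro h
  exact hi (by linear_combination (-1 : K) * h)

theorem mv_mul (g h : SpecialLinearGroup (Fin 2) K) (x : Fin 2 → K) :
    ((g * h : SpecialLinearGroup (Fin 2) K) : Matrix (Fin 2) (Fin 2) K) *ᵥ x =
      (g : Matrix (Fin 2) (Fin 2) K) *ᵥ ((h : Matrix (Fin 2) (Fin 2) K) *ᵥ x) := by
  rw [mulVec_mulVec]; rfl

theorem mv_inv (g : SpecialLinearGroup (Fin 2) K) (x : Fin 2 → K) :
    ((g⁻¹ : SpecialLinearGroup (Fin 2) K) : Matrix (Fin 2) (Fin 2) K) *ᵥ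
      ((g : Matrix (Fin 2) (Fin 2) K) *ᵥ x) = x := by
  rw [← mv_mul, inv_mul_cancel]; exact one_mulVec x

theorem Eig.mul (h1 : Eig g x c) (h2 : Eig h x d) : Eig (g * h) x (c * d) := by
  unfold Eig at *
  rw [mv_mul, h2, mulVec_smul, h1, smul_smul, mul_comm c d]

theorem eig_one (x : Fin 2 → K) : Eig 1 x 1 := by simp [Eig]

theorem Eig.pow (h1 : Eig g x c) (n : ℕ) : Eig (g ^ n) x (c ^ n) := by
  induction n with
  | zero => simpa using eig_one x
  | succ n ih => rw [pow_succ, pow_succ]; exact ih.mul h1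

theorem Eig.val_unique (hx : x ≠ 0) (h1 : Eig g x c) (h2 : Eig g x d) : c = d :=
  smul_left_injective K hx (h1.symm.trans h2)

theorem Eig.ne_zero (hx : x ≠ 0) (h1 : Eig g x c) : c ≠ 0 := by
  rintro rfl
  have h2 := mv_inv g x
  rw [show (g : Matrix (Fin 2) (Fin 2) K) *ᵥ x = (0 : K) • x from h1, zero_smul, mulVec_zero] at h2
  exact hx h2.symm

theorem Eig.inv (hx : x ≠ 0) (h1 : Eig g x c) : Eig g⁻¹ x c⁻¹ := by
  have h2 := mv_inv g x
  rw [show (g : Matrix (Fin 2) (Fin 2) K) *ᵥ x = c • x from h1, mulVec_smul] at h2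
  unfold Eig
  conv_rhs => rw [← h2, smul_smul, inv_mul_cancel₀ (h1.ne_zero hx), one_smul]

/-- Conjugation moves eigenvectors. -/
theorem Eig.conj (h1 : Eig g x c) :
    Eig (h * g * h⁻¹) ((h : Matrix (Fin 2) (Fin 2) K) *ᵥ x) c := by
  unfold Eig at *
  rw [mv_mul, mv_mul, mv_inv, h1, mulVec_smul]

theorem mulVec_ne_zero (g : SpecialLinearGroup (Fin 2) K) (hx : x ≠ 0) :
    (g : Matrix (Fin 2) (Fin 2) K) *ᵥ x ≠ 0 := fun h1 =>
  Eig.ne_zero hx (show Eig g x 0 by rw [Eig, h1, zero_smul]) rfl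

theorem mulVec_indep (g : SpecialLinearGroup (Fin 2) K) (hi : Indep x y) :
    Indep ((g : Matrix (Fin 2) (Fin 2) K) *ᵥ x) ((g : Matrix (Fin 2) (Fin 2) K) *ᵥ y) := by
  intro h
  refine hi ?_
  have hd := g.2
  rw [Matrix.det_fin_two] at hd
  simp [Matrix.mulVec, dotProduct, Fin.sum_univ_two] at h
  linear_combination h - (x 0 * y 1 - x 1 * y 0) * hd

/-- The values at two independent eigenvectors multiply to `1`. -/
theorem Eig.prod (hi : Indep x y) (h1 : Eig g x c) (h2 : Eig g y d) : c * d = 1 := by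
  have hd := g.2
  rw [Matrix.det_fin_two] at hd
  have e0 := congrFun h1 0
  have e1 := congrFun h1 1
  have f0 := congrFun h2 0
  have f1 := congrFun h2 1
  simp [Matrix.mulVec, dotProduct, Fin.sum_univ_two] at e0 e1 f0 f1
  refine mul_right_cancel₀ hi ?_
  linear_combination (x 0 * y 1 - x 1 * y 0) * hd
    - ((g : Matrix (Fin 2) (Fin 2) K) 1 0 * y 0 + (g : Matrix (Fin 2) (Fin 2) K) 1 1 * y 1) * e0
    + ((g : Matrix (Fin 2) (Fin 2) K) 1 0 * x 0 + (g : Matrix (Fin 2) (Fin 2) K) 1 1 * x 1) * f0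
    - c * x 0 * f1 + d * y 0 * e1

/-- Elements agreeing on two independent vectors are equal. -/
theorem ext_of_indep (hi : Indep x y)
    (h1 : (g : Matrix (Fin 2) (Fin 2) K) *ᵥ x = (h : Matrix (Fin 2) (Fin 2) K) *ᵥ x)
    (h2 : (g : Matrix (Fin 2) (Fin 2) K) *ᵥ y = (h : Matrix (Fin 2) (Fin 2) K) *ᵥ y) : g = h := by
  have key : ∀ v, (g : Matrix (Fin 2) (Fin 2) K) *ᵥ v = (h : Matrix (Fin 2) (Fin 2) K) *ᵥ v := by
    intro v
    obtain ⟨s, t, rfl⟩ := exists_coords hi v
    simp only [mulVec_add, mulVec_smul, h1, h2]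
  exact H1.SL_ext_coe (Matrix.toLin'.injective (LinearMap.ext fun v => by simpa using key v))

theorem Eig.ext (hi : Indep x y) (h1 : Eig g x c) (h2 : Eig g y d) (h3 : Eig h x c) (h4 : Eig h y d) :
    g = h :=
  ext_of_indep hi (h1.trans h3.symm) (h2.trans h4.symm)

/-- Elements diagonal in the same basis commute. -/
theorem Eig.commute {c' d' : K} (hi : Indep x y) (h1 : Eig g x c) (h2 : Eig g y d)
    (h3 : Eig h x c') (h4 : Eig h y d') : Commute g h :=
  Eig.ext hi (h1.mul h3) (h2.mul h4) (mul_comm c' c ▸ h3.mul h1) (mul_comm d' d ▸ h4.mul h2)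

/-- An element with two values has only two eigenlines. -/
theorem Eig.cases (hi : Indep x y) (hcd : c ≠ d) (h1 : Eig g x c) (h2 : Eig g y d) (hv : v ≠ 0)
    (h3 : Eig g v e) : (e = c ∧ ∃ s : K, v = s • x) ∨ (e = d ∧ ∃ t : K, v = t • y) := by
  obtain ⟨s, t, rfl⟩ := exists_coords hi v
  unfold Eig at h1 h2 h3
  rw [mulVec_add, mulVec_smul, mulVec_smul, h1, h2] at h3
  have e0 := congrFun h3 0
  have e1 := congrFun h3 1
  simp only [Pi.add_apply, Pi.smul_apply, smul_eq_mul] at e0 e1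
  unfold Indep at hi
  have hs : s * (c - e) = 0 := by
    refine mul_right_cancel₀ hi ?_
    rw [zero_mul]
    linear_combination (y 1) * e0 - (y 0) * e1
  have ht : t * (d - e) = 0 := by
    refine mul_right_cancel₀ hi ?_
    rw [zero_mul]
    linear_combination (x 0) * e1 - (x 1) * e0
  rcases mul_eq_zero.1 hs with rfl | h'
  · rcases mul_eq_zero.1 ht with rfl | h''
    · exact absurd (by simp) hv
    · exact Or.inr ⟨(sub_eq_zero.1 h'').symm, t, by simp⟩
  · rcases mul_eq_zero.1 ht with rfl | h''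
    · exact Or.inl ⟨(sub_eq_zero.1 h').symm, s, by simp⟩
    · exact absurd ((sub_eq_zero.1 h').trans (sub_eq_zero.1 h'').symm) hcd

/-- A semisimple eigenvalue comes with a second eigenvector. -/
theorem Eig.exists_second (hx : x ≠ 0) (hc : c * c ≠ 1) (h1 : Eig g x c) :
    ∃ y, Indep x y ∧ Eig g y c⁻¹ := by
  have hc0 := h1.ne_zero hx
  have hdet : ((g : Matrix (Fin 2) (Fin 2) K) - c • (1 : Matrix (Fin 2) (Fin 2) K)).det = 0 :=
    Matrix.exists_mulVec_eq_zero_iff.1
      ⟨x, hx, by rw [sub_mulVec, smul_mulVec, one_mulVec, h1, sub_self]⟩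
  have hd := g.2
  rw [Matrix.det_fin_two] at hd
  rw [Matrix.det_fin_two] at hdet
  simp at hdet
  have hdet' : ((g : Matrix (Fin 2) (Fin 2) K) - c⁻¹ • (1 : Matrix (Fin 2) (Fin 2) K)).det = 0 := by
    rw [Matrix.det_fin_two]
    simp
    field_simp
    linear_combination hdet + (c * c - 1) * hd
  obtain ⟨y, hy, hgy⟩ := Matrix.exists_mulVec_eq_zero_iff.2 hdet'
  rw [sub_mulVec, smul_mulVec, one_mulVec, sub_eq_zero] at hgy
  refine ⟨y, fun hi => ?_, hgy⟩
  obtain ⟨s, rfl⟩ := exists_smul_of_not_indep hx (not_not.2 hi)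
  have hs : s ≠ 0 := by rintro rfl; exact hy (zero_smul K x)
  have h2 : Eig g (s • x) c := by
    unfold Eig
    rw [mulVec_smul, show (g : Matrix (Fin 2) (Fin 2) K) *ᵥ x = c • x from h1, smul_comm]
  have h3 := Eig.val_unique hy h2 hgy
  exact hc (by nth_rw 1 [h3]; exact inv_mul_cancel₀ hc0)

/-- Over an algebraically closed field there is an eigenvector. -/
theorem exists_eig [IsAlgClosed K] (g : SpecialLinearGroup (Fin 2) K) : ∃ x c, x ≠ 0 ∧ Eig g x c := by
  obtain ⟨c, hc⟩ := Module.End.exists_eigenvalue (Matrix.toLin' (g : Matrix (Fin 2) (Fin 2) K))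
  obtain ⟨v, hv⟩ := hc.exists_hasEigenvector
  exact ⟨v, c, hv.2, by simpa [Eig] using Module.End.mem_eigenspace_iff.1 hv.1⟩

section CharP

variable {p : ℕ} [Fact p.Prime] [CharP K p]

include p

/-- A fixed vector forces order dividing `p`. -/
theorem pow_eq_one_of_eig_one (hx : x ≠ 0) (h1 : Eig g x 1) : g ^ p = 1 :=
  H1.SL2_pow_char_eq_one p g hx (h1.trans (one_smul K x))

/-- Value `±1` forces order dividing `2p`. -/
theorem pow_eq_one_of_eig_sq (hx : x ≠ 0) (h1 : Eig g x c) (hc : c * c = 1) : g ^ (2 * p) = 1 := by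
  rw [pow_mul]
  exact pow_eq_one_of_eig_one hx (by simpa [sq, hc] using h1.pow 2)

/-- The value of an element of order dividing `p` is `1`. -/
theorem val_eq_one_of_pow (hg : g ^ p = 1) (hx : x ≠ 0) (h1 : Eig g x c) : c = 1 := by
  have h2 := h1.pow p
  rw [hg] at h2
  have h3 : c ^ p = 1 := h2.val_unique hx (eig_one x)
  exact frobenius_inj K p (by simpa [frobenius_def] using h3)

/-- An element of order dividing `p` has a fixed vector. -/
theorem exists_fixed (hg : g ^ p = 1) : ∃ x, x ≠ 0 ∧ Eig g x 1 := by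
  have h : ((g : Matrix (Fin 2) (Fin 2) K) - 1) ^ p = 0 := by
    have h1 := congrArg SpecialLinearGroup.coeMonoidHom hg
    rw [map_pow, map_one] at h1
    rw [sub_pow_char_of_commute p (Commute.one_right _), one_pow]
    exact sub_eq_zero.2 h1
  have h2 := congrArg Matrix.det h
  rw [Matrix.det_pow, Matrix.det_zero] at h2
  obtain ⟨x, hx, hgx⟩ := Matrix.exists_mulVec_eq_zero_iff.2 (eq_zero_of_pow_eq_zero h2)
  rw [sub_mulVec, one_mulVec, sub_eq_zero] at hgx
  exact ⟨x, hx, by rw [Eig, hgx, one_smul]⟩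

/-- An element of order dividing `p` with two eigenlines is trivial. -/
theorem eq_one_of_two (hg : g ^ p = 1) (hi : Indep x y) (h1 : Eig g x c) (h2 : Eig g y d) :
    g = 1 := by
  obtain rfl := val_eq_one_of_pow hg (indep_ne_zero_left hi) h1
  obtain rfl := val_eq_one_of_pow hg (indep_ne_zero_right hi) h2
  exact Eig.ext hi h1 h2 (eig_one x) (eig_one y)

/-- A nontrivial element of order `p` has only one eigenline. -/
theorem exists_smul_of_unipotent (hg : g ^ p = 1) (hg1 : g ≠ 1) (hx : x ≠ 0) (h1 : Eig g x c)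
    (h2 : Eig g v d) : ∃ s : K, v = s • x :=
  exists_smul_of_not_indep hx fun hi => hg1 (eq_one_of_two hg hi h1 h2)

/-- Elements of order dividing `p` with a common fixed vector commute. -/
theorem commute_of_common (hg : g ^ p = 1) (hh : h ^ p = 1) (hx : x ≠ 0) (h1 : Eig g x c)
    (h2 : Eig h x d) : Commute g h := by
  obtain rfl := val_eq_one_of_pow hg hx h1
  obtain rfl := val_eq_one_of_pow hh hx h2
  obtain ⟨y, hi⟩ : ∃ y, Indep x y := by
    by_cases h0 : x 0 = 0
    · refine ⟨![1, 0], fun h => hx ?_⟩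
      simp at h
      ext i; fin_cases i <;> simp [h0, h]
    · exact ⟨![0, 1], by simpa [Indep] using h0⟩
  have key : ∀ k : SpecialLinearGroup (Fin 2) K, Eig k x 1 →
      ∃ s : K, (k : Matrix (Fin 2) (Fin 2) K) *ᵥ y = s • x + y := by
    intro k hk
    obtain ⟨s, t, hst⟩ := exists_coords hi ((k : Matrix (Fin 2) (Fin 2) K) *ᵥ y)
    refine ⟨s, ?_⟩
    suffices t = 1 by rw [hst, this, one_smul]
    have hd := k.2
    rw [Matrix.det_fin_two] at hd
    have e0 := congrFun hk 0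
    have e1 := congrFun hk 1
    have f0 := congrFun hst 0
    have f1 := congrFun hst 1
    simp [Matrix.mulVec, dotProduct, Fin.sum_univ_two] at e0 e1 f0 f1
    refine mul_right_cancel₀ hi ?_
    linear_combination (x 0 * y 1 - x 1 * y 0) * hd
      - ((k : Matrix (Fin 2) (Fin 2) K) 1 0 * y 0 + (k : Matrix (Fin 2) (Fin 2) K) 1 1 * y 1) * e0
      + ((k : Matrix (Fin 2) (Fin 2) K) 1 0 * x 0 + (k : Matrix (Fin 2) (Fin 2) K) 1 1 * x 1) * f0
      - x 0 * f1 + (s * x 0 + t * y 0) * e1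
  obtain ⟨s, hs⟩ := key g h1
  obtain ⟨t, ht⟩ := key h h2
  refine ext_of_indep hi ((h1.mul h2).trans (h2.mul h1).symm) ?_
  unfold Eig at h1 h2
  rw [mv_mul, mv_mul, hs, ht,
    mulVec_add, mulVec_add, mulVec_smul, mulVec_smul, h1, h2, hs, ht, one_smul]
  abel

/-- A semisimple element does not commute with its conjugate by a nontrivial element of order `p`. -/
theorem not_commute_conj (hp : p ≠ 2) {a z : SpecialLinearGroup (Fin 2) K} (ha : a ^ p = 1)
    (ha1 : a ≠ 1) (hx : x ≠ 0) (hzx : Eig z x c) (hc : c * c ≠ 1) : ¬ Commute (a * z * a⁻¹) z := by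
  intro hcomm
  obtain ⟨y, hi, hzy⟩ := hzx.exists_second hx hc
  have hcc : c ≠ c⁻¹ := fun h => hc (by nth_rw 1 [h]; exact inv_mul_cancel₀ (hzx.ne_zero hx))
  set z' := a * z * a⁻¹
  have hdiag : ∀ v c, Eig z v c → Eig z ((z' : Matrix (Fin 2) (Fin 2) K) *ᵥ v) c := by
    intro v c hv
    have := hv.conj (h := z')
    rwa [hcomm.eq, mul_inv_cancel_right] at this
  obtain ⟨e, hex⟩ : ∃ e, Eig z' x e := by
    rcases Eig.cases hi hcc hzx hzy (mulVec_ne_zero z' hx) (hdiag x c hzx) with ⟨-, s, hs⟩ | ⟨h, -⟩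
    · exact ⟨s, hs⟩
    · exact absurd h hcc
  obtain ⟨f, hfy⟩ : ∃ f, Eig z' y f := by
    rcases Eig.cases hi hcc hzx hzy (mulVec_ne_zero z' (indep_ne_zero_right hi)) (hdiag y _ hzy) with
      ⟨h, -⟩ | ⟨-, s, hs⟩
    · exact absurd h hcc.symm
    · exact ⟨s, hs⟩
  have hax0 : Eig z' ((a : Matrix (Fin 2) (Fin 2) K) *ᵥ x) c := hzx.conj
  have hef : e ≠ f := by
    intro h
    have h1 : e * f = 1 := Eig.prod hi hex hfy
    rw [← h] at h1
    obtain ⟨s, t, hst⟩ := exists_coords hi ((a : Matrix (Fin 2) (Fin 2) K) *ᵥ x)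
    have h2 : Eig z' ((a : Matrix (Fin 2) (Fin 2) K) *ᵥ x) e := by
      unfold Eig at hex hfy ⊢
      rw [hst, mulVec_add, mulVec_smul, mulVec_smul, hex, hfy, h, smul_add, smul_comm, smul_comm f t]
    have hce : c = e := hax0.val_unique (mulVec_ne_zero a hx) h2
    exact hc (hce ▸ h1)
  have hax := Eig.cases hi hef hex hfy (mulVec_ne_zero a hx) hax0
  have hay := Eig.cases hi hef hex hfy (mulVec_ne_zero a (indep_ne_zero_right hi)) hzy.conj
  have hia := mulVec_indep a hi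
  have hpar : ∀ (s t : K) (u : Fin 2 → K), ¬ Indep (s • u) (t • u) := fun s t u h => h (by simp; ring)
  rcases hax with ⟨-, s, hs⟩ | ⟨-, s, hs⟩ <;> rcases hay with ⟨-, t, ht⟩ | ⟨-, t, ht⟩
  · exact hpar s t x (hs ▸ ht ▸ hia)
  · exact ha1 (eq_one_of_two ha hi (show Eig a x s from hs) (show Eig a y t from ht))
  · refine ha1 ?_
    have h2x : Eig (a ^ 2) x (t * s) := by
      unfold Eig
      rw [sq, mv_mul, hs, mulVec_smul, ht, smul_smul, mul_comm]
    have h2y : Eig (a ^ 2) y (s * t) := by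
      unfold Eig
      rw [sq, mv_mul, ht, mulVec_smul, hs, smul_smul, mul_comm]
    have h2 : a ^ 2 = 1 := eq_one_of_two (by rw [← pow_mul, mul_comm, pow_mul, ha, one_pow]) hi h2x h2y
    have h3 : orderOf a ∣ Nat.gcd 2 p :=
      Nat.dvd_gcd (orderOf_dvd_of_pow_eq_one h2) (orderOf_dvd_of_pow_eq_one ha)
    rw [(Nat.coprime_primes Nat.prime_two (Fact.out : p.Prime)).2 (Ne.symm hp)] at h3
    exact orderOf_eq_one_iff.1 (Nat.dvd_one.1 h3)
  · exact hpar s t y (hs ▸ ht ▸ hia)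

/-- An `r`-group (`r ∉ {2, p}`) normalised by a nontrivial element of order `p` is trivial. -/
theorem eq_bot_of_odd_pGroup [IsAlgClosed K] (hp : p ≠ 2) {r : ℕ} [Fact r.Prime] (hr2 : r ≠ 2)
    (hrp : r ≠ p) (R : Subgroup (SpecialLinearGroup (Fin 2) K)) [Finite R] (hR : IsPGroup r R)
    {a : SpecialLinearGroup (Fin 2) K} (ha : a ^ p = 1) (ha1 : a ≠ 1)
    (hn : a ∈ Subgroup.normalizer (R : Set (SpecialLinearGroup (Fin 2) K))) : R = ⊥ := by
  by_contra hne
  haveI : Nontrivial R := R.nontrivial_iff_ne_bot.2 hne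
  haveI := hR.center_nontrivial
  obtain ⟨⟨z, hzc⟩, hz1⟩ := exists_ne (1 : Subgroup.center R)
  have hzc' : ∀ w ∈ R, w * (z : SpecialLinearGroup (Fin 2) K) = z * w := fun w hw =>
    congrArg Subtype.val (Subgroup.mem_center_iff.1 hzc ⟨w, hw⟩)
  have hsemi : ∀ w ∈ R, w ≠ 1 → ∀ v c, v ≠ 0 → Eig w v c → c * c ≠ 1 := by
    intro w hw hw1 v c hv hwv hc
    obtain ⟨k, hk⟩ := hR ⟨w, hw⟩
    have h1 : orderOf w ∣ r ^ k := orderOf_dvd_of_pow_eq_one (congrArg Subtype.val hk)
    have h2 : orderOf w ∣ 2 * p := orderOf_dvd_of_pow_eq_one (pow_eq_one_of_eig_sq hv hwv hc)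
    have hcop : (r ^ k).Coprime (2 * p) := Nat.Coprime.pow_left k (Nat.Coprime.mul_right
      ((Nat.coprime_primes Fact.out Nat.prime_two).2 hr2) ((Nat.coprime_primes Fact.out Fact.out).2 hrp))
    exact hw1 (orderOf_eq_one_iff.1 (Nat.dvd_one.1 (hcop ▸ Nat.dvd_gcd h1 h2)))
  have hz1' : (z : SpecialLinearGroup (Fin 2) K) ≠ 1 := fun h => hz1 (Subtype.ext (Subtype.ext h))
  obtain ⟨x, c, hx, hzx⟩ := exists_eig (z : SpecialLinearGroup (Fin 2) K)
  have hc := hsemi z z.2 hz1' x c hx hzx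
  have hz' : a * (z : SpecialLinearGroup (Fin 2) K) * a⁻¹ ∈ R := (Subgroup.mem_normalizer_iff.1 hn _).1 z.2
  exact not_commute_conj hp ha ha1 hx hzx hc (hzc' _ hz')

/-- A finite group with two non-commuting elements of order `p` has even order. -/
theorem two_dvd_card [IsAlgClosed K] (hp : p ≠ 2) (L : Subgroup (SpecialLinearGroup (Fin 2) K))
    [Finite L] {a b : SpecialLinearGroup (Fin 2) K} (haL : a ∈ L) (hbL : b ∈ L) (ha : a ^ p = 1)
    (hb : b ^ p = 1) (hab : ¬ Commute a b) : 2 ∣ Nat.card L := by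
  by_contra hodd
  have ha1 : a ≠ 1 := by rintro rfl; exact hab (Commute.one_left b)
  have hsq : ∀ w ∈ L, w ^ 2 = 1 → w = 1 := by
    intro w hw h2
    have h1 : orderOf w ∣ Nat.gcd 2 (Nat.card L) :=
      Nat.dvd_gcd (orderOf_dvd_of_pow_eq_one h2)
        (by rw [← Subgroup.orderOf_mk w hw]; exact orderOf_dvd_natCard _)
    rw [(Nat.prime_two.coprime_iff_not_dvd).2 hodd] at h1
    exact orderOf_eq_one_iff.1 (Nat.dvd_one.1 h1)
  obtain ⟨x, hx, hax⟩ := exists_fixed ha
  let B : Subgroup L :=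
    { carrier := {g | ∃ c, Eig (g : SpecialLinearGroup (Fin 2) K) x c}
      mul_mem' := fun ⟨c, hc⟩ ⟨d, hd⟩ => ⟨c * d, hc.mul hd⟩
      one_mem' := ⟨1, eig_one x⟩
      inv_mem' := fun ⟨c, hc⟩ => ⟨c⁻¹, hc.inv hx⟩ }
  have haB : (⟨a, haL⟩ : L) ∈ B := ⟨1, hax⟩
  have hbB : (⟨b, hbL⟩ : L) ∉ B := fun ⟨c, hc⟩ => hab (commute_of_common ha hb hx hax hc)
  have hfc : Cfsg.IsFrobeniusComplement B := by
    refine ⟨fun h => ?_, fun h => hbB (h ▸ Subgroup.mem_top _), fun g hg => ?_⟩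
    · rw [h, Subgroup.mem_bot] at haB
      exact ha1 (congrArg Subtype.val haB)
    rw [eq_bot_iff]
    rintro h ⟨⟨l, hl⟩, hh'⟩
    replace hh' := H21.mem_conj_smul.1 hh'
    obtain ⟨m, hm⟩ := hh'
    set G0 := (g : SpecialLinearGroup (Fin 2) K)
    set h0 := (h : SpecialLinearGroup (Fin 2) K)
    set y := (G0 : Matrix (Fin 2) (Fin 2) K) *ᵥ x
    have hy : y ≠ 0 := mulVec_ne_zero G0 hx
    have hi : Indep x y := by
      intro hdep
      obtain ⟨s, hs⟩ := exists_smul_of_not_indep hx (not_not.2 hdep)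
      exact hg ⟨s, hs⟩
    have hlx : Eig h0 x l := hl
    have hmy : Eig h0 y m := by
      have := (show Eig (G0⁻¹ * h0 * G0) x m from hm).conj (h := G0)
      rwa [show G0 * (G0⁻¹ * h0 * G0) * G0⁻¹ = h0 by simp [mul_assoc]] at this
    have hlm := Eig.prod hi hlx hmy
    rw [Subgroup.mem_bot]
    refine Subtype.ext (?_ : h0 = 1)
    by_cases hll : l * l = 1
    · have h2p : (h0 ^ p) ^ 2 = 1 := by
        rw [← pow_mul, mul_comm]; exact pow_eq_one_of_eig_sq hx hlx hll
      exact eq_one_of_two (hsq _ (pow_mem h.2 p) h2p) hi hlx hmy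
    exfalso
    have hl0 := hlx.ne_zero hx
    have hm' : m = l⁻¹ := eq_inv_of_mul_eq_one_right hlm
    have hlm' : l ≠ m := fun e => hll (by nth_rw 2 [e]; exact hlm)
    let P : Subgroup L :=
      { carrier := {u | Eig (u : SpecialLinearGroup (Fin 2) K) y 1}
        mul_mem' := fun hu hv => by simpa using hu.mul hv
        one_mem' := eig_one y
        inv_mem' := fun hu => by simpa using hu.inv hy }
    have hmem : ∀ u : P, (u : L) * h⁻¹ * (u : L)⁻¹ * h ∈ P := by
      intro u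
      have hu : Eig ((u : L) : SpecialLinearGroup (Fin 2) K) y 1 := u.2
      have := ((hu.mul (hmy.inv hy)).mul (hu.inv hy)).mul hmy
      simpa [P, h0, inv_mul_cancel₀ (hmy.ne_zero hy)] using this
    let f : P → P := fun u => ⟨_, hmem u⟩
    have hinj : Function.Injective f := by
      intro u v huv
      have h1 : (u : L) * h⁻¹ * (u : L)⁻¹ * h = (v : L) * h⁻¹ * (v : L)⁻¹ * h := congrArg Subtype.val huv
      have hw : ((v : L)⁻¹ * u) * h⁻¹ * ((v : L)⁻¹ * u)⁻¹ = h⁻¹ := by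
        rw [_root_.mul_inv_rev, inv_inv]
        calc (v : L)⁻¹ * u * h⁻¹ * ((u : L)⁻¹ * v) = (v : L)⁻¹ * ((u : L) * h⁻¹ * (u : L)⁻¹ * h) * (h⁻¹ * v) := by
              simp [mul_assoc]
          _ = _ := by rw [h1]; simp [mul_assoc]
      set w : P := v⁻¹ * u
      have hwy : Eig ((w : L) : SpecialLinearGroup (Fin 2) K) y 1 := w.2
      have hw' : ((w : L) : SpecialLinearGroup (Fin 2) K) * h0⁻¹ * ((w : L) : SpecialLinearGroup (Fin 2) K)⁻¹ = h0⁻¹ :=
        congrArg Subtype.val hw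
      have hinv := (hlx.inv hx).conj (h := ((w : L) : SpecialLinearGroup (Fin 2) K))
      rw [hw'] at hinv
      rcases Eig.cases hi (fun e => hlm' (inv_injective e)) (hlx.inv hx) (hmy.inv hy)
          (mulVec_ne_zero _ hx) hinv with ⟨-, s, hs⟩ | ⟨e, -⟩
      · have hws : Eig ((w : L) : SpecialLinearGroup (Fin 2) K) x s := hs
        have hs1 : s = 1 := by simpa using Eig.prod hi hws hwy
        have hw1 : w = 1 := Subtype.ext (Subtype.ext (Eig.ext hi hws hwy (hs1 ▸ eig_one x) (eig_one y)))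
        exact (inv_mul_eq_one.1 hw1).symm
      · exact absurd e (fun e => hlm' (inv_injective e))
    obtain ⟨u, hu⟩ := (Finite.injective_iff_surjective.1 hinj) ⟨g * h * g⁻¹ * h, by
      have h1 : Eig (G0 * h0 * G0⁻¹) y l := hlx.conj
      have := h1.mul hmy
      rw [hlm] at this
      exact this⟩
    have hu' : (u : L) * h⁻¹ * (u : L)⁻¹ = g * h * g⁻¹ := by
      simpa [f] using congrArg Subtype.val hu
    set k := (u : L)⁻¹ * g
    have hk : k * h * k⁻¹ = h⁻¹ := by
      calc k * h * k⁻¹ = (u : L)⁻¹ * (g * h * g⁻¹) * u := by simp [k, mul_assoc]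
        _ = _ := by rw [← hu']; simp [mul_assoc]
    have hk2 : Commute (k ^ 2) h := by
      refine (mul_inv_eq_iff_eq_mul).1 ?_
      calc k ^ 2 * h * (k ^ 2)⁻¹ = k * (k * h * k⁻¹) * k⁻¹ := by simp [sq, mul_assoc]
        _ = (k * h * k⁻¹)⁻¹ := by nth_rw 1 [hk]; simp [mul_assoc]
        _ = h := by rw [hk, inv_inv]
    obtain ⟨j, hj⟩ : Odd (orderOf k) := Nat.not_even_iff_odd.1 fun he =>
      hodd (((even_iff_two_dvd.1 he)).trans (orderOf_dvd_natCard k))
    have hkh : Commute k h := by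
      have : (k ^ 2) ^ (j + 1) = k := by
        rw [← pow_mul, show 2 * (j + 1) = orderOf k + 1 by omega, pow_succ, pow_orderOf_eq_one, one_mul]
      exact this ▸ hk2.pow_left (j + 1)
    rw [hkh.eq, mul_inv_cancel_right] at hk
    have h00 : h0 = 1 := hsq _ h.2 (by
      have := congrArg Subtype.val hk
      rw [sq]; nth_rw 2 [show h0 = (h⁻¹ : L) from this]
      simp [h0])
    rw [h00] at hlx
    exact hll (by rw [hlx.val_unique hx (eig_one x), one_mul])
  obtain ⟨N, -, hNn, hc⟩ := H21.exists_kernel hfc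
  have hcardN : Nat.card N = B.index := hc.index_eq_card.symm
  have haord : orderOf (⟨a, haL⟩ : L) = p :=
    orderOf_eq_prime (Subtype.ext ha) (fun h => ha1 (congrArg Subtype.val h))
  have hpN : Nat.Coprime p (Nat.card N) := by
    have h1 : p ∣ Nat.card B := by
      rw [← haord, ← Subgroup.orderOf_mk _ haB]; exact orderOf_dvd_natCard _
    rw [hcardN]
    exact (H21.coprime_card_index hfc).coprime_dvd_left h1
  have hN : Nat.card N = 1 := by
    by_contra hN1
    obtain ⟨r, hr, hrN⟩ := Nat.exists_prime_and_dvd hN1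
    haveI := Fact.mk hr
    have hcA : (Nat.card (Subgroup.zpowers (⟨a, haL⟩ : L))).Coprime (Nat.card N) := by
      rw [Nat.card_zpowers, haord]; exact hpN
    obtain ⟨R, hRN, hRA, hRp, hRc⟩ := H20.exists_invariant_sylow_subgroup
      (A := Subgroup.zpowers (⟨a, haL⟩ : L)) (K := N)
      (le_top.trans_eq (Subgroup.normalizer_eq_top_iff.2 hNn).symm) hcA
      (Or.inl inferInstance) r
    have hrp : r ≠ p := by
      rintro rfl
      exact hr.ne_one (Nat.dvd_one.1 (hpN ▸ Nat.dvd_gcd dvd_rfl hrN))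
    have hr2 : r ≠ 2 := by
      rintro rfl
      exact hodd (hrN.trans (Subgroup.card_subgroup_dvd_card N))
    have hRn : a ∈ Subgroup.normalizer ((R.map L.subtype : Subgroup (SpecialLinearGroup (Fin 2) K)) :
        Set (SpecialLinearGroup (Fin 2) K)) :=
      Subgroup.le_normalizer_map L.subtype (Subgroup.mem_map_of_mem L.subtype (hRA (Subgroup.mem_zpowers _)))
    haveI : Finite ↥(R.map L.subtype) :=
      Finite.of_surjective _ (L.subtype.subgroupMap_surjective R)
    have h0 := eq_bot_of_odd_pGroup hp hr2 hrp (R.map L.subtype) (hRp.map _) ha ha1 hRn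
    rw [Subgroup.map_eq_bot_iff_of_injective _ L.subtype_injective] at h0
    rw [h0, Subgroup.card_bot] at hRc
    exact (hr.factorization_pos_of_dvd Nat.card_pos.ne' hrN).ne'
      ((Nat.pow_eq_one.1 hRc.symm).resolve_left hr.ne_one)
  have hBtop : B = ⊤ := Subgroup.index_eq_one.1 (hcardN ▸ hN)
  exact hbB (hBtop ▸ Subgroup.mem_top _)

end CharP

end Cfsg.Agent.H34.SL2U
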