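import Cfsg.Agent.H28.CyclicSylow
import Cfsg.Agent.H34.SL2
import Cfsg.Agent.H34.SL2Unipotent

/-! Abelian Sylow `2`-subgroups and sections `SL(2, 3)` in finite subgroups of `SL₂`. -/

set_option autoImplicit false

namespace Cfsg.Agent.H34.SL2U

open Matrix
open scoped commutatorElement

variable {K : Type*} [Field K] [IsAlgClosed K] {p : ℕ} [Fact p.Prime] [CharP K p]

omit [IsAlgClosed K] in
include p in
/-- Two is invertible in odd characteristic. -/
theorem two_ne_zero_of_ne (hp : p ≠ 2) : (2 : K) ≠ 0 := by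
  intro h
  have h' : ((2 : ℕ) : K) = 0 := by exact_mod_cast h
  rw [CharP.cast_eq_zero_iff K p] at h'
  exact hp ((Nat.prime_dvd_prime_iff_eq Fact.out Nat.prime_two).1 h')

include p in
/-- An element of a `2`-group is `±1` or has a semisimple eigenvalue. -/
theorem exists_semisimple (hp : p ≠ 2) {w : SpecialLinearGroup (Fin 2) K}
    (hw : ∃ k, w ^ 2 ^ k = 1) (h1 : w ≠ 1) (h2 : (w : Matrix (Fin 2) (Fin 2) K) ≠ -1) :
    ∃ x c, x ≠ 0 ∧ Eig w x c ∧ c * c ≠ 1 := by
  obtain ⟨x, c, hx, hc⟩ := exists_eig w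
  refine ⟨x, c, hx, hc, fun hcc => h2 ?_⟩
  obtain ⟨k, hk⟩ := hw
  have hd : orderOf (w ^ 2) ∣ Nat.gcd (2 ^ k) p := Nat.dvd_gcd
    (orderOf_dvd_of_pow_eq_one (by rw [← pow_mul, mul_comm, pow_mul, hk, one_pow]))
    (orderOf_dvd_of_pow_eq_one (by rw [← pow_mul]; exact pow_eq_one_of_eig_sq hx hc hcc))
  rw [((Nat.coprime_primes Nat.prime_two (Fact.out : p.Prime)).2 (Ne.symm hp)).pow_left k] at hd
  exact H1.SL2_involution_eq_neg_one (two_ne_zero_of_ne hp) w h1
    (by rw [← sq]; exact orderOf_eq_one_iff.1 (Nat.dvd_one.1 hd))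

include p in
/-- Two non-commuting elements of order `p` do not lie in a group with abelian `2`-subgroups. -/
theorem not_abelian_two (hp : p ≠ 2) (L : Subgroup (SpecialLinearGroup (Fin 2) K)) [Finite L]
    {a b : SpecialLinearGroup (Fin 2) K} (haL : a ∈ L) (hbL : b ∈ L) (ha : a ^ p = 1) (hb : b ^ p = 1)
    (hab : ¬ Commute a b) :
    ¬ ∀ R : Subgroup L, IsPGroup 2 R → IsMulCommutative R := by
  intro hR
  set M := Subgroup.closure ({⟨a, haL⟩, ⟨b, hbL⟩} : Set L)
  have haM : (⟨a, haL⟩ : L) ∈ M := Subgroup.subset_closure (by simp)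
  have hbM : (⟨b, hbL⟩ : L) ∈ M := Subgroup.subset_closure (by simp)
  set L' := M.map L.subtype
  haveI : Finite L' := Finite.of_surjective _ (L.subtype.subgroupMap_surjective M)
  have h2 := two_dvd_card hp L' (Subgroup.mem_map_of_mem L.subtype haM)
    (Subgroup.mem_map_of_mem L.subtype hbM) ha hb hab
  rw [Subgroup.card_map_of_injective L.subtype_injective] at h2
  obtain ⟨T⟩ : Nonempty (Sylow 2 M) := inferInstance
  set U := (T : Subgroup M).map M.subtype
  have hUc : IsMulCommutative U := hR U (T.2.map _)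
  have hcyc : IsCyclic (T : Subgroup M) := by
    have hinjU : Function.Injective ((T : Subgroup M).subtype) := Subtype.val_injective
    let ι : (T : Subgroup M) →* SpecialLinearGroup (Fin 2) K :=
      L.subtype.comp (M.subtype.comp (T : Subgroup M).subtype)
    have hι : Function.Injective ι :=
      L.subtype_injective.comp (M.subtype_injective.comp hinjU)
    have hcomm : ∀ s t, Commute (ι s) (ι t) := fun s t => by
      have h := setLike_mul_comm (s := U) (a := ((s : M) : L)) (b := ((t : M) : L))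
        ⟨_, s.2, rfl⟩ ⟨_, t.2, rfl⟩
      exact congrArg Subtype.val h
    have hpow : ∀ s, ∃ k, ι s ^ 2 ^ k = 1 := fun s => by
      obtain ⟨k, hk⟩ := T.2 s
      exact ⟨k, by rw [← map_pow, hk, map_one]⟩
    have hsq : ∀ s : (T : Subgroup M), (∀ x c, x ≠ 0 → Eig (ι s) x c → c * c = 1) →
        ι s = 1 ∨ (ι s : Matrix (Fin 2) (Fin 2) K) = -1 := by
      intro s hs
      by_contra h
      rw [not_or] at h
      obtain ⟨x, c, hx, hc, hcc⟩ := exists_semisimple hp (hpow s) h.1 h.2
      exact hcc (hs x c hx hc)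
    obtain ⟨x, hx, hxe⟩ : ∃ x, x ≠ 0 ∧ ∀ s, ∃ d, Eig (ι s) x d := by
      by_cases h : ∃ s x c, x ≠ 0 ∧ Eig (ι s) x c ∧ c * c ≠ 1
      · obtain ⟨s, x, c, hx, hsx, hc⟩ := h
        refine ⟨x, hx, fun t => ?_⟩
        obtain ⟨y, hi, hsy⟩ := hsx.exists_second hx hc
        have hcc : c ≠ c⁻¹ := fun h => hc (by nth_rw 1 [h]; exact inv_mul_cancel₀ (hsx.ne_zero hx))
        have hconj := hsx.conj (h := ι t)
        rw [(hcomm t s).eq, mul_inv_cancel_right] at hconj
        rcases Eig.cases hi hcc hsx hsy (mulVec_ne_zero _ hx) hconj with ⟨-, d, hd⟩ | ⟨e, -⟩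
        · exact ⟨d, hd⟩
        · exact absurd e hcc
      · refine ⟨![1, 0], fun h0 => one_ne_zero (congrFun h0 0), fun s => ?_⟩
        rcases hsq s fun x c hx hc => by_contra fun hcc => h ⟨s, x, c, hx, hc, hcc⟩ with h1 | h1
        · exact ⟨1, h1 ▸ eig_one _⟩
        · exact ⟨-1, by rw [Eig, h1, neg_mulVec, one_mulVec, neg_one_smul]⟩
    choose χ hχ using hxe
    let χ' : (T : Subgroup M) →* K :=
      { toFun := χ
        map_one' := ((hχ 1).val_unique hx) (by rw [map_one]; exact eig_one x)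
        map_mul' := fun s t => ((hχ (s * t)).val_unique hx) (by rw [map_mul]; exact (hχ s).mul (hχ t)) }
    refine isCyclic_of_subgroup_isDomain χ' fun s t hst => ?_
    have h1 : χ' (s⁻¹ * t) = 1 := by
      rw [map_mul, ← hst, ← map_mul, inv_mul_cancel, map_one]
    have h2 : Eig (ι (s⁻¹ * t)) x 1 := by
      have := hχ (s⁻¹ * t)
      rwa [show χ (s⁻¹ * t) = 1 from h1] at this
    obtain ⟨k, hk⟩ := hpow (s⁻¹ * t)
    have hd : orderOf (ι (s⁻¹ * t)) ∣ Nat.gcd (2 ^ k) p := Nat.dvd_gcd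
      (orderOf_dvd_of_pow_eq_one hk) (orderOf_dvd_of_pow_eq_one (pow_eq_one_of_eig_one hx h2))
    rw [((Nat.coprime_primes Nat.prime_two (Fact.out : p.Prime)).2 (Ne.symm hp)).pow_left k] at hd
    refine inv_mul_eq_one.1 (hι ?_)
    rw [map_one]
    exact orderOf_eq_one_iff.1 (Nat.dvd_one.1 hd)
  obtain ⟨H, hH⟩ := H28.exists_index_two_of_cyclic_sylow (even_iff_two_dvd.2 h2) T hcyc
  obtain ⟨j, hj⟩ : Odd p := (Fact.out : p.Prime).odd_of_ne_two hp
  have hmem : ∀ w : M, w ^ p = 1 → w ∈ H := by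
    intro w hw
    have h := pow_mem (Subgroup.sq_mem_of_index_two hH w) (j + 1)
    rwa [← pow_mul, show 2 * (j + 1) = p + 1 by omega, pow_succ, hw, one_mul] at h
  have hMH : M ≤ H.map M.subtype := by
    rw [Subgroup.closure_le]
    rintro w (rfl | rfl)
    · exact ⟨⟨_, haM⟩, hmem _ (Subtype.ext (Subtype.ext ha)), rfl⟩
    · exact ⟨⟨_, hbM⟩, hmem _ (Subtype.ext (Subtype.ext hb)), rfl⟩
  have hHtop : H = ⊤ := eq_top_iff.2 fun w _ => by
    obtain ⟨v, hv, hvw⟩ := hMH w.2
    rwa [Subtype.ext hvw] at hv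
  rw [hHtop, Subgroup.index_top] at hH
  omega

omit [IsAlgClosed K] in
/-- The coordinates of a fixed line. -/
theorem exists_shear {k : SpecialLinearGroup (Fin 2) K} {x y : Fin 2 → K} (hi : Indep x y)
    (hk : Eig k x 1) : ∃ s : K, (k : Matrix (Fin 2) (Fin 2) K) *ᵥ y = s • x + y := by
  obtain ⟨s, t, hst⟩ := exists_coords hi ((k : Matrix (Fin 2) (Fin 2) K) *ᵥ y)
  refine ⟨s, ?_⟩
  suffices t = 1 by rw [hst, this, one_smul]
  have hd := k.2
  rw [Matrix.det_fin_two] at hd
  have e0 := congrFun hk 0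
  have e1 := congrFun hk 1
  have f0 := congrFun hst 0
  have f1 := congrFun hst 1
  simp [Matrix.mulVec, dotProduct, Fin.sum_univ_two] at e0 e1 f0 f1
  refine mul_right_cancel₀ hi ?_
  linear_combination (x 0 * y 1 - x 1 * y 0) * hd
    - ((k : Matrix (Fin 2) (Fin 2) K) 1 0 * y 0 + (k : Matrix (Fin 2) (Fin 2) K) 1 1 * y 1) * e0
    + ((k : Matrix (Fin 2) (Fin 2) K) 1 0 * x 0 + (k : Matrix (Fin 2) (Fin 2) K) 1 1 * x 1) * f0
    - x 0 * f1 + (s * x 0 + t * y 0) * e1

include p in
/-- The quaternion relations: an element of order `p` and an element `i` with `i² = -1` anticommuting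
with its first two conjugates generate `SL(2, 3)`, and `p = 3`. -/
theorem exists_sl2_three (hp : p ≠ 2) {a i : SpecialLinearGroup (Fin 2) K} (ha : a ^ p = 1)
    (ha1 : a ≠ 1) (hi2 : (i : Matrix (Fin 2) (Fin 2) K) * i = -1)
    (h1 : ((a * i * a⁻¹ * i : SpecialLinearGroup (Fin 2) K) : Matrix (Fin 2) (Fin 2) K) =
      -((i * (a * i * a⁻¹) : SpecialLinearGroup (Fin 2) K) : Matrix (Fin 2) (Fin 2) K))
    (h2 : ((a * a * i * (a * a)⁻¹ * i : SpecialLinearGroup (Fin 2) K) : Matrix (Fin 2) (Fin 2) K) =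
      -((i * (a * a * i * (a * a)⁻¹) : SpecialLinearGroup (Fin 2) K) : Matrix (Fin 2) (Fin 2) K)) :
    p = 3 ∧ Nonempty (↥(Subgroup.closure ({a, i} : Set (SpecialLinearGroup (Fin 2) K))) ≃*
      SpecialLinearGroup (Fin 2) (ZMod 3)) := by
  obtain ⟨x, hx, hax⟩ := exists_fixed ha
  have h20 := two_ne_zero_of_ne (K := K) hp
  set y := (i : Matrix (Fin 2) (Fin 2) K) *ᵥ x with hy
  have hiy : (i : Matrix (Fin 2) (Fin 2) K) *ᵥ y = -x := by
    rw [hy, mulVec_mulVec, hi2, neg_mulVec, one_mulVec]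
  have hind : Indep x y := by
    intro hdep
    obtain ⟨c, hc⟩ := exists_smul_of_not_indep hx (not_not.2 hdep)
    have hix : Eig i x c := hc
    have hjx : Eig (a * i * a⁻¹) x c := by simpa using (hax.mul hix).mul (hax.inv hx)
    have h := congrArg (fun M : Matrix (Fin 2) (Fin 2) K => M *ᵥ x) h1
    simp only [neg_mulVec] at h
    rw [(hjx.mul hix : Eig _ x (c * c)), (hix.mul hjx : Eig _ x (c * c))] at h
    have h' := add_eq_zero_iff_eq_neg.2 h
    rw [← add_smul, smul_eq_zero] at h'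
    rcases h' with h' | h'
    · rw [← two_mul, mul_eq_zero] at h'
      exact hix.ne_zero hx (mul_self_eq_zero.1 (h'.resolve_left h20))
    · exact hx h'
  obtain ⟨s, hs⟩ := exists_shear hind hax
  have key : ∀ (g : SpecialLinearGroup (Fin 2) K) (t : K), Eig g x 1 →
      (g : Matrix (Fin 2) (Fin 2) K) *ᵥ y = t • x + y →
      ((g * i * g⁻¹ * i : SpecialLinearGroup (Fin 2) K) : Matrix (Fin 2) (Fin 2) K) =
        -((i * (g * i * g⁻¹) : SpecialLinearGroup (Fin 2) K) : Matrix (Fin 2) (Fin 2) K) →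
      t * t = -2 := by
    intro g t hgx hgy h
    have hgix : ((g⁻¹ : SpecialLinearGroup (Fin 2) K) : Matrix (Fin 2) (Fin 2) K) *ᵥ x = x := by
      have := hgx.inv hx; rwa [inv_one, Eig, one_smul] at this
    have hgiy : ((g⁻¹ : SpecialLinearGroup (Fin 2) K) : Matrix (Fin 2) (Fin 2) K) *ᵥ y =
        (-t) • x + y := by
      have h' := mv_inv g y
      rw [hgy, mulVec_add, mulVec_smul, hgix] at h'
      conv_rhs => rw [← h', ← add_assoc, ← add_smul, neg_add_cancel, zero_smul, zero_add]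
    have hgx' : (g : Matrix (Fin 2) (Fin 2) K) *ᵥ x = x := by rwa [Eig, one_smul] at hgx
    have e := congrArg (fun M : Matrix (Fin 2) (Fin 2) K => M *ᵥ x) h
    simp only [neg_mulVec, mv_mul, mulVec_add, mulVec_smul, mulVec_neg, ← hy, hiy, hgix, hgiy, hgx',
      hgy, smul_add, smul_neg, smul_smul] at e
    have e' : (t * t + 2) • x = 0 := by
      rw [add_smul, two_smul]
      linear_combination (norm := module) (-1 : K) • e
    exact eq_neg_of_add_eq_zero_left ((smul_eq_zero.1 e').resolve_right hx)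
  have hs2 := key a s hax hs h1
  have hs4 : (s + s) * (s + s) = -2 := key (a * a) (s + s) (by simpa using hax.mul hax) (by
    rw [mv_mul, hs, mulVec_add, mulVec_smul, hs]
    rw [Eig, one_smul] at hax
    rw [hax, add_smul, add_assoc]) h2
  have h6 : ((6 : ℕ) : K) = 0 := by
    push_cast
    linear_combination (-1 : K) * hs4 + 4 * hs2
  rw [CharP.cast_eq_zero_iff K p] at h6
  have hp3 : p = 3 := by
    have h6' : p ∣ 2 * 3 := h6
    rcases (Fact.out : p.Prime).dvd_mul.1 h6' with h | h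
    · exact absurd ((Nat.prime_dvd_prime_iff_eq Fact.out Nat.prime_two).1 h) hp
    · exact (Nat.prime_dvd_prime_iff_eq Fact.out Nat.prime_three).1 h
  subst hp3
  refine ⟨rfl, ?_⟩
  have h30 : (3 : K) = 0 := by exact_mod_cast CharP.cast_eq_zero K 3
  obtain ⟨σ, hσ, hσ0⟩ : ∃ σ : ZMod 3, (ZMod.cast σ : K) = s ∧ σ ≠ 0 := by
    have h' : (s - 1) * (s + 1) = 0 := by linear_combination hs2 - h30
    rcases mul_eq_zero.1 h' with h' | h'
    · exact ⟨1, by rw [sub_eq_zero.1 h']; exact ZMod.cast_one dvd_rfl, one_ne_zero⟩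
    · exact ⟨-1, by rw [eq_neg_of_add_eq_zero_left h', ZMod.cast_neg dvd_rfl, ZMod.cast_one dvd_rfl],
        neg_ne_zero.2 one_ne_zero⟩
  let P : Matrix (Fin 2) (Fin 2) K := !![x 0, y 0; x 1, y 1]
  have hP : P.det = x 0 * y 1 - y 0 * x 1 := by simp [P, Matrix.det_fin_two]
  have hPu : IsUnit P.det := isUnit_iff_ne_zero.2 (by rw [hP, mul_comm (y 0)]; exact hind)
  let f := ZMod.castHom (dvd_refl 3) K
  let ψ : SpecialLinearGroup (Fin 2) (ZMod 3) →* SpecialLinearGroup (Fin 2) K :=
    { toFun := fun M => ⟨P * (SpecialLinearGroup.map f M).1 * P⁻¹, by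
        rw [Matrix.det_conj ((Matrix.isUnit_iff_isUnit_det P).2 hPu)]
        exact (SpecialLinearGroup.map f M).2⟩
      map_one' := by
        apply H1.SL_ext_coe
        change P * (SpecialLinearGroup.map f 1).1 * P⁻¹ = _
        rw [map_one]
        change P * 1 * P⁻¹ = 1
        rw [Matrix.mul_one, Matrix.mul_nonsing_inv P hPu]
      map_mul' := fun M N => by
        apply H1.SL_ext_coe
        rw [map_mul]
        change P * ((SpecialLinearGroup.map f M).1 * (SpecialLinearGroup.map f N).1) * P⁻¹ =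
          P * (SpecialLinearGroup.map f M).1 * P⁻¹ * (P * (SpecialLinearGroup.map f N).1 * P⁻¹)
        simp only [Matrix.mul_assoc]
        rw [← Matrix.mul_assoc P⁻¹ P, Matrix.nonsing_inv_mul P hPu, Matrix.one_mul] }
  have hinj : Function.Injective ψ := by
    intro M N h
    have h' : P * (SpecialLinearGroup.map f M).1 * P⁻¹ =
        P * (SpecialLinearGroup.map f N).1 * P⁻¹ :=
      congrArg (fun g : SpecialLinearGroup (Fin 2) K => (g : Matrix (Fin 2) (Fin 2) K)) h
    have h'' := congrArg (fun X => P⁻¹ * X * P) h'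
    simp only [← Matrix.mul_assoc, Matrix.nonsing_inv_mul P hPu, Matrix.one_mul] at h''
    simp only [Matrix.mul_assoc, Matrix.nonsing_inv_mul P hPu, Matrix.mul_one] at h''
    apply H1.SL_ext_coe
    ext r c
    exact f.injective (congrFun (congrFun h'' r) c)
  have hψ : ∀ (M : SpecialLinearGroup (Fin 2) (ZMod 3)) (g : SpecialLinearGroup (Fin 2) K),
      (g : Matrix (Fin 2) (Fin 2) K) * P = P * (SpecialLinearGroup.map f M).1 →
        ψ M = g := by
    intro M g h
    apply H1.SL_ext_coe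
    change P * (SpecialLinearGroup.map f M).1 * P⁻¹ = _
    rw [← h, Matrix.mul_assoc, Matrix.mul_nonsing_inv P hPu, Matrix.mul_one]
  let S : SpecialLinearGroup (Fin 2) (ZMod 3) := ⟨!![0, -1; 1, 0], by simp [Matrix.det_fin_two]⟩
  have hax0 := congrFun hax 0
  have hax1 := congrFun hax 1
  have hay0 := congrFun hs 0
  have hay1 := congrFun hs 1
  have hix0 := congrFun hy 0
  have hix1 := congrFun hy 1
  have hiy0 := congrFun hiy 0
  have hiy1 := congrFun hiy 1
  simp [Matrix.mulVec, dotProduct, Fin.sum_univ_two] at hax0 hax1 hay0 hay1 hix0 hix1 hiy0 hiy1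
  have hfu : (SpecialLinearGroup.map f (SL2.upper σ)).1 = !![1, s; 0, 1] := by
    change f.mapMatrix !![1, σ; 0, 1] = _
    ext r c
    fin_cases r <;> fin_cases c <;> simp [f, hσ]
  have hfS : (SpecialLinearGroup.map f S).1 = !![0, -1; 1, 0] := by
    change f.mapMatrix !![0, -1; 1, 0] = _
    ext r c
    fin_cases r <;> fin_cases c <;> simp [f, ZMod.cast_neg, ZMod.cast_one]
  have hψa : ψ (SL2.upper σ) = a := by
    refine hψ _ a ?_
    rw [hfu]
    ext r c
    fin_cases r <;> fin_cases c <;>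
      simp [P, Matrix.mul_apply, Fin.sum_univ_two] <;>
      first | linear_combination hax0 | linear_combination hax1 | linear_combination hay0 |
        linear_combination hay1
  have hψi : ψ S = i := by
    refine hψ _ i ?_
    rw [hfS]
    ext r c
    fin_cases r <;> fin_cases c <;>
      simp [P, Matrix.mul_apply, Fin.sum_univ_two] <;>
      first | linear_combination -hix0 | linear_combination -hix1 | linear_combination hiy0 |
        linear_combination hiy1
  have htop : Subgroup.closure ({SL2.upper σ, S} : Set (SpecialLinearGroup (Fin 2) (ZMod 3))) = ⊤ := by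
    refine SL2.eq_top_of_upper_lower 3 (s := σ) (t := -σ) hσ0 (neg_ne_zero.2 hσ0)
      (Subgroup.subset_closure (by simp)) ?_
    have hl : SL2.lower (-σ) = S * SL2.upper σ * S⁻¹ := by
      refine eq_mul_inv_iff_mul_eq.2 (H1.SL_ext_coe ?_)
      change !![1, 0; -σ, 1] * !![0, -1; 1, 0] = !![0, -1; 1, 0] * !![1, σ; 0, 1]
      simp [Matrix.mul_fin_two]
    rw [hl]
    exact mul_mem (mul_mem (Subgroup.subset_closure (by simp)) (Subgroup.subset_closure (by simp)))
      (inv_mem (Subgroup.subset_closure (by simp)))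
  have hrange : ψ.range = Subgroup.closure ({a, i} : Set (SpecialLinearGroup (Fin 2) K)) := by
    rw [MonoidHom.range_eq_map, ← htop, MonoidHom.map_closure, Set.image_pair, hψa, hψi]
  rw [← hrange]
  exact ⟨(MonoidHom.ofInjective hinj).symm⟩

set_option maxHeartbeats 1000000 in
include p in
/-- A group of order prime to `p` that is normalised but not centralised by an element of order `p`
forces `p = 3` and a subgroup `SL(2, 3)`. -/
theorem exists_section (hp : p ≠ 2) (L : Subgroup (SpecialLinearGroup (Fin 2) K)) [Finite L]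
    (a : L) (ha : a ^ p = 1) (N : Subgroup L) (hn : a ∈ Subgroup.normalizer (N : Set L))
    (hcop : (Nat.card N).Coprime p) (hnc : ¬ a ∈ Subgroup.centralizer (N : Set L)) :
    p = 3 ∧ ∃ M : Subgroup L, Nonempty (M ≃* SpecialLinearGroup (Fin 2) (ZMod 3)) := by
  have ha1 : a ≠ 1 := fun h => hnc (h ▸ one_mem _)
  have haK : (a : SpecialLinearGroup (Fin 2) K) ≠ 1 := fun h => ha1 (Subtype.ext h)
  have hapK : (a : SpecialLinearGroup (Fin 2) K) ^ p = 1 := congrArg Subtype.val ha
  have hA : Nat.card (Subgroup.zpowers a) = p := by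
    rw [Nat.card_zpowers]; exact orderOf_eq_prime ha ha1
  obtain ⟨R₀, hR₀N, hR₀n, hR₀2, hR₀c⟩ : ∃ R : Subgroup L, R ≤ N ∧
      a ∈ Subgroup.normalizer (R : Set L) ∧ IsPGroup 2 R ∧ ¬ a ∈ Subgroup.centralizer (R : Set L) := by
    by_contra hno
    apply hnc
    set C := N ⊓ Subgroup.centralizer ({a} : Set L)
    suffices Nat.card N ∣ Nat.card C by
      have heq : C = N := Subgroup.eq_of_le_of_card_ge inf_le_left (Nat.le_of_dvd Nat.card_pos this)
      intro w hw
      rw [SetLike.mem_coe, ← heq] at hw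
      exact (hw.2 a rfl).symm
    rw [Nat.dvd_iff_prime_pow_dvd_dvd]
    intro r k hr hk
    haveI := Fact.mk hr
    rcases Nat.eq_zero_or_pos k with rfl | hk0
    · simp
    obtain ⟨R, hRN, hRn, hRr, hRcard⟩ := H20.exists_invariant_sylow_subgroup
      (A := Subgroup.zpowers a) (K := N) (Subgroup.zpowers_le.2 hn) (hA.symm ▸ hcop.symm)
      (Or.inl inferInstance) r
    have hrp : r ≠ p := by
      rintro rfl
      exact (Nat.Prime.coprime_iff_not_dvd hr).1 hcop.symm ((dvd_pow_self r hk0.ne').trans hk)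
    have hRC : a ∈ Subgroup.centralizer (R : Set L) := by
      rcases eq_or_ne r 2 with rfl | hr2
      · by_contra hRC
        exact hno ⟨R, hRN, hRn (Subgroup.mem_zpowers a), hRr, hRC⟩
      · haveI : Finite ↥(R.map L.subtype) :=
          Finite.of_surjective _ (L.subtype.subgroupMap_surjective R)
        have h0 := eq_bot_of_odd_pGroup hp hr2 hrp (R.map L.subtype) (hRr.map _) hapK haK
          (Subgroup.le_normalizer_map L.subtype
            (Subgroup.mem_map_of_mem L.subtype (hRn (Subgroup.mem_zpowers a))))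
        rw [Subgroup.map_eq_bot_iff_of_injective _ L.subtype_injective] at h0
        intro w hw
        rw [h0, SetLike.mem_coe, Subgroup.mem_bot] at hw
        rw [hw, one_mul, mul_one]
    have hRle : R ≤ C := le_inf hRN fun w hw b hb => by
      rw [Set.mem_singleton_iff.1 hb]
      exact (hRC w hw).symm
    refine dvd_trans ?_ (Subgroup.card_dvd_of_le hRle)
    rw [hRcard]
    exact pow_dvd_pow r ((hr.pow_dvd_iff_le_factorization Nat.card_pos.ne').1 hk)
  obtain ⟨R, ⟨hRn, hR2, hRc⟩, hmin⟩ := Set.exists_min_image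
    {R : Subgroup L | a ∈ Subgroup.normalizer (R : Set L) ∧ IsPGroup 2 R ∧
      ¬ a ∈ Subgroup.centralizer (R : Set L)} (fun R => Nat.card R) (Set.toFinite _)
    ⟨R₀, hR₀n, hR₀2, hR₀c⟩
  have hneg : ∀ w : L, (∃ k, w ^ 2 ^ k = 1) → Commute a w →
      w = 1 ∨ ((w : SpecialLinearGroup (Fin 2) K) : Matrix (Fin 2) (Fin 2) K) = -1 := by
    intro w hw hwa
    by_contra h
    rw [not_or] at h
    obtain ⟨k, hk⟩ := hw
    obtain ⟨x, c, hx, hc, hcc⟩ := exists_semisimple (p := p) hp ⟨k, congrArg Subtype.val hk⟩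
      (fun e => h.1 (Subtype.ext e)) h.2
    refine not_commute_conj hp hapK haK hx hc hcc ?_
    have e : (a : SpecialLinearGroup (Fin 2) K) * w * (a : SpecialLinearGroup (Fin 2) K)⁻¹ = w := by
      rw [show (a : SpecialLinearGroup (Fin 2) K) * w = w * a from congrArg Subtype.val hwa.eq,
        mul_inv_cancel_right]
    rw [e]
  have hnegc : ∀ {w : L}, ((w : SpecialLinearGroup (Fin 2) K) : Matrix (Fin 2) (Fin 2) K) = -1 →
      ∀ v : L, Commute w v := fun {w} hw v => Subtype.ext (H1.SL_ext_coe (by simp [hw]))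
  haveI : Nontrivial R := R.nontrivial_iff_ne_bot.2 fun h => hRc (by
    intro w hw
    rw [h, SetLike.mem_coe, Subgroup.mem_bot] at hw
    rw [hw, one_mul, mul_one])
  haveI := hR2.isNilpotent
  have hD : ∀ v ∈ R, ∀ w ∈ R, v * w * v⁻¹ * w⁻¹ = 1 ∨
      ((v * w * v⁻¹ * w⁻¹ : L) : SpecialLinearGroup (Fin 2) K).1 = -1 := by
    intro v hv w hw
    set D := (commutator R).map R.subtype
    have hDR : D ≤ R := Subgroup.map_subtype_le _
    have hDmem : v * w * v⁻¹ * w⁻¹ ∈ D :=
      ⟨⁅(⟨v, hv⟩ : R), (⟨w, hw⟩ : R)⁆,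
        Subgroup.commutator_mem_commutator (Subgroup.mem_top _) (Subgroup.mem_top _),
        by simp [commutatorElement_def]⟩
    have hlt : Nat.card D < Nat.card R := by
      refine lt_of_le_of_ne (Subgroup.card_le_of_le hDR) fun h => ?_
      have hDtop : D = R := Subgroup.eq_of_le_of_card_ge hDR h.ge
      have htop : commutator R = ⊤ := by
        apply Subgroup.map_injective R.subtype_injective
        rw [← MonoidHom.range_eq_map, Subgroup.range_subtype]
        exact hDtop
      haveI : Group.IsSolvable R := inferInstance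
      exact absurd htop (Group.IsSolvable.commutator_lt_top_of_nontrivial R).ne
    have hDn : a ∈ Subgroup.normalizer (D : Set L) := by
      have hDeq : D = ⁅R, R⁆ := by
        simp only [D, commutator_def, Subgroup.map_commutator, ← MonoidHom.range_eq_map,
          Subgroup.range_subtype]
      rw [hDeq, Subgroup.mem_normalizer_iff_map_conj_eq]
      rw [Subgroup.mem_normalizer_iff_map_conj_eq] at hRn
      exact (Subgroup.map_commutator R R _).trans (by rw [hRn])
    have hDC : a ∈ Subgroup.centralizer (D : Set L) := by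
      by_contra hDC
      exact (hmin D ⟨hDn, hR2.to_le hDR, hDC⟩).not_gt hlt
    obtain ⟨k, hk⟩ := hR2 ⟨_, hDR hDmem⟩
    exact hneg _ ⟨k, congrArg Subtype.val hk⟩ (hDC _ hDmem).symm
  obtain ⟨i, hiR, hia⟩ : ∃ i ∈ R, ¬ Commute a i := by
    by_contra h
    exact hRc fun w hw => (not_not.1 fun hw' => h ⟨w, hw, hw'⟩ : Commute a w).eq.symm
  have hi1 : i ≠ 1 := fun h => hia (h ▸ Commute.one_right a)
  have hiK : (i : SpecialLinearGroup (Fin 2) K).1 ≠ -1 := fun h => hia (hnegc h a).symm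
  have hi2 : ∀ w ∈ R, ∀ g : L, (g : SpecialLinearGroup (Fin 2) K) ^ p = 1 → g ≠ 1 →
      Commute (g * w * g⁻¹) w → w = 1 ∨ (w : SpecialLinearGroup (Fin 2) K).1 = -1 := by
    intro w hw g hg hg1 hcm
    by_contra h
    rw [not_or] at h
    obtain ⟨k, hk⟩ := hR2 ⟨w, hw⟩
    obtain ⟨x, c, hx, hc, hcc⟩ := exists_semisimple (p := p) hp
      ⟨k, congrArg (fun v : R => ((v : L) : SpecialLinearGroup (Fin 2) K)) hk⟩
      (fun e => h.1 (Subtype.ext e)) h.2
    exact not_commute_conj hp hg (fun e => hg1 (Subtype.ext e)) hx hc hcc (hcm.map L.subtype)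
  have hai : a * i * a⁻¹ ∈ R := (Subgroup.mem_normalizer_iff.1 hRn i).1 hiR
  have haai : a * a * i * (a * a)⁻¹ ∈ R := by
    have h := (Subgroup.mem_normalizer_iff.1 (mul_mem hRn hRn) i).1 hiR
    exact h
  have hanti : ∀ g : L, (g : SpecialLinearGroup (Fin 2) K) ^ p = 1 → g ≠ 1 → g * i * g⁻¹ ∈ R →
      ((g * i * g⁻¹ * i : L) : SpecialLinearGroup (Fin 2) K).1 =
        -((i * (g * i * g⁻¹) : L) : SpecialLinearGroup (Fin 2) K).1 := by
    intro g hg hg1 hgR
    rcases hD _ hgR i hiR with h | h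
    · rw [mul_inv_eq_one, mul_inv_eq_iff_eq_mul] at h
      exact absurd (hi2 i hiR g hg hg1 h) (not_or.2 ⟨hi1, hiK⟩)
    · have e : g * i * g⁻¹ * i = (g * i * g⁻¹ * i * (g * i * g⁻¹)⁻¹ * i⁻¹) * (i * (g * i * g⁻¹)) := by
        simp [mul_assoc]
      rw [e]
      change (g * i * g⁻¹ * i * (g * i * g⁻¹)⁻¹ * i⁻¹ : L).1.1 * (i * (g * i * g⁻¹) : L).1.1 = _
      rw [h, neg_mul, one_mul]
  have hsq : i * i ≠ 1 := fun h => hiK
    (H1.SL2_involution_eq_neg_one (two_ne_zero_of_ne hp) _ (fun e => hi1 (Subtype.ext e))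
      (congrArg Subtype.val h))
  have hi4 : (i : SpecialLinearGroup (Fin 2) K).1 * (i : SpecialLinearGroup (Fin 2) K).1 = -1 := by
    have hc : Commute (a * (i * i) * a⁻¹) (i * i) := by
      have h1 := hanti a hapK ha1 hai
      set j := a * i * a⁻¹
      have hj : a * (i * i) * a⁻¹ = j * j := by simp [j, mul_assoc]
      rw [hj]
      refine Subtype.ext (H1.SL_ext_coe ?_)
      set I := (i : SpecialLinearGroup (Fin 2) K).1
      set J := (j : SpecialLinearGroup (Fin 2) K).1
      replace h1 : J * I = -(I * J) := h1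
      change J * J * (I * I) = I * I * (J * J)
      calc J * J * (I * I) = J * (J * I) * I := by simp [mul_assoc]
        _ = -(J * I * (J * I)) := by
          rw [show J * (J * I) * I = J * (-(I * J)) * I by rw [← h1]]; simp [mul_assoc]
        _ = -(I * J * (I * J)) := by rw [h1, neg_mul_neg]
        _ = -(I * (J * I) * J) := by simp [mul_assoc]
        _ = I * I * (J * J) := by rw [h1]; simp [mul_assoc]
    exact (hi2 (i * i) (mul_mem hiR hiR) a hapK ha1 hc).resolve_left hsq
  have ha2p : ((a * a : L) : SpecialLinearGroup (Fin 2) K) ^ p = 1 := by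
    rw [Subgroup.coe_mul, ← sq, ← pow_mul, mul_comm, pow_mul, hapK, one_pow]
  have ha21 : a * a ≠ 1 := fun h => ha1 (orderOf_eq_one_iff.1 (Nat.dvd_one.1 (by
    rw [← (Nat.coprime_primes Nat.prime_two (Fact.out : p.Prime)).2 (Ne.symm hp)]
    exact Nat.dvd_gcd (orderOf_dvd_of_pow_eq_one (by rw [sq]; exact h)) (orderOf_dvd_of_pow_eq_one ha))))
  obtain ⟨hp3, ⟨e⟩⟩ := exists_sl2_three hp hapK haK hi4 (hanti a hapK ha1 hai)
    (hanti (a * a) ha2p ha21 haai)
  refine ⟨hp3, Subgroup.closure {a, i}, ⟨MulEquiv.trans ?_ e⟩⟩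
  refine (Subgroup.equivMapOfInjective _ L.subtype L.subtype_injective).trans
    (MulEquiv.subgroupCongr ?_)
  rw [MonoidHom.map_closure, Set.image_pair]
  rfl

end Cfsg.Agent.H34.SL2U
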