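import Mathlib.GroupTheory.QuotientGroup.Basic
import Cfsg.Agent.H34.QuadRep
import Cfsg.Agent.H34.SL2Section

/-! Pairs of quadratic elements acting faithfully on an elementary abelian group. -/

set_option autoImplicit false

namespace Cfsg.Agent.H34.QuadPair

open Matrix Polynomial
open scoped commutatorElement

variable {K : Type*} [Field K] {p : ℕ} [Fact p.Prime] [CharP K p]

omit [CharP K p] in
/-- Non-`p`-elements of order prime to `p`. -/
theorem pow_ne_one_of_coprime {G : Type*} [Group G] {x : G} (hx : x ≠ 1) {m : ℕ} (hm : x ^ m = 1)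
    (hcop : m.Coprime p) (n : ℕ) : x ^ p ^ n ≠ 1 := fun h =>
  hx (orderOf_eq_one_iff.1 (Nat.dvd_one.1 ((hcop.pow_right n : m.Coprime (p ^ n)) ▸
    Nat.dvd_gcd (orderOf_dvd_of_pow_eq_one hm) (orderOf_dvd_of_pow_eq_one h))))

/-- Two images generating a group with an element that is not a `p`-element do not commute. -/
theorem not_commute {H : Type*} [Group H] [Finite H] {a b : H} (hgen : Subgroup.closure {a, b} = ⊤)
    (φ : H →* SpecialLinearGroup (Fin 2) K) (ha : φ a ^ p = 1) (hb : φ b ^ p = 1) {h₀ : H}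
    (hnp : ∀ n, φ h₀ ^ p ^ n ≠ 1) : ¬ Commute (φ a) (φ b) := by
  intro hc
  suffices ∀ h : H, Commute (φ h) (φ a) ∧ Commute (φ h) (φ b) ∧ φ h ^ p = 1 from
    hnp 1 (by rw [pow_one]; exact (this h₀).2.2)
  intro h
  have h1 : h ∈ Submonoid.closure ({a, b} : Set H) := by
    rw [← Subgroup.closure_toSubmonoid_of_finite, hgen]; trivial
  suffices Commute (φ h) (φ a) ∧ Commute (φ h) (φ b) ∧
      ∀ g, Commute g (φ a) → Commute g (φ b) → g ^ p = 1 → (φ h * g) ^ p = 1 from
    ⟨this.1, this.2.1, by simpa using this.2.2 1 (Commute.one_left _) (Commute.one_left _) (one_pow p)⟩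
  induction h1 using Submonoid.closure_induction with
  | mem z hz =>
    rcases hz with rfl | rfl
    · exact ⟨Commute.refl _, hc, fun g hga _ hg => by rw [hga.symm.mul_pow, ha, hg, one_mul]⟩
    · exact ⟨hc.symm, Commute.refl _, fun g _ hgb hg => by rw [hgb.symm.mul_pow, hb, hg, one_mul]⟩
  | one => simp
  | mul z w _ _ hz hw =>
    refine ⟨?_, ?_, fun g hga hgb hg => ?_⟩
    · rw [map_mul]; exact hz.1.mul_left hw.1
    · rw [map_mul]; exact hz.2.1.mul_left hw.2.1
    · rw [map_mul, mul_assoc]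
      exact hz.2.2 _ (hw.1.mul_left hga) (hw.2.1.mul_left hgb) (hw.2.2 g hga hgb hg)

/-- A normal `p`-subgroup of a group containing two non-commuting elements of order `p` is trivial. -/
theorem pGroup_eq_bot (L P : Subgroup (SpecialLinearGroup (Fin 2) K)) [Finite P] (hP : IsPGroup p P)
    (hn : L ≤ Subgroup.normalizer (P : Set (SpecialLinearGroup (Fin 2) K)))
    {a b : SpecialLinearGroup (Fin 2) K} (haL : a ∈ L) (hbL : b ∈ L) (ha : a ^ p = 1) (hb : b ^ p = 1)
    (hab : ¬ Commute a b) : P = ⊥ := by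
  by_contra hne
  have : Nontrivial P := P.nontrivial_iff_ne_bot.2 hne
  have := hP.center_nontrivial
  obtain ⟨k, hk⟩ := IsPGroup.iff_card.1 (hP.to_subgroup (Subgroup.center P))
  have hdvd : p ∣ Nat.card ↥(Subgroup.center P) := by
    rw [hk]
    refine dvd_pow_self p ?_
    rintro rfl
    exact absurd hk (by rw [pow_zero]; exact (Finite.one_lt_card (α := ↥(Subgroup.center P))).ne')
  obtain ⟨u, hu⟩ := exists_prime_orderOf_dvd_card' p hdvd
  set U : SpecialLinearGroup (Fin 2) K := ((u : P) : SpecialLinearGroup (Fin 2) K)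
  have hUp : U ^ p = 1 := by
    have h := pow_orderOf_eq_one u
    rw [hu] at h
    exact congrArg (fun z : Subgroup.center P => ((z : P) : SpecialLinearGroup (Fin 2) K)) h
  have hU1 : U ≠ 1 := fun h => by
    rw [show u = 1 from Subtype.ext (Subtype.ext h), orderOf_one] at hu
    exact (Fact.out : p.Prime).one_lt.ne hu
  obtain ⟨x, hx, hUx⟩ := SL2U.exists_fixed hUp
  have hline : ∀ g ∈ L, ∃ c, SL2U.Eig g x c := by
    intro g hg
    have hgU : g * U * g⁻¹ ∈ P := (Subgroup.mem_normalizer_iff.1 (hn hg) U).1 (u : P).2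
    have hcomm : Commute (g * U * g⁻¹) U :=
      congrArg Subtype.val (Subgroup.mem_center_iff.1 u.2 ⟨_, hgU⟩)
    have hgUp : (g * U * g⁻¹) ^ p = 1 := by rw [conj_pow, hUp]; simp
    have h1 : SL2U.Eig U (((g * U * g⁻¹ : SpecialLinearGroup (Fin 2) K) : Matrix (Fin 2) (Fin 2) K) *ᵥ x) 1 := by
      have h := hUx.conj (h := g * U * g⁻¹)
      rwa [hcomm.eq, mul_inv_cancel_right] at h
    obtain ⟨d, hd⟩ := SL2U.exists_smul_of_unipotent hUp hU1 hx hUx h1
    have hd' : SL2U.Eig (g * U * g⁻¹) x d := hd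
    have hgU1 : g * U * g⁻¹ ≠ 1 := fun h => hU1 (by simpa using h)
    obtain ⟨c, hc⟩ := SL2U.exists_smul_of_unipotent hgUp hgU1 hx hd' (hUx.conj (h := g))
    exact ⟨c, hc⟩
  obtain ⟨c, hc⟩ := hline a haL
  obtain ⟨d, hd⟩ := hline b hbL
  exact hab (SL2U.commute_of_common ha hb hx hc hd)

omit [Fact p.Prime] [CharP K p] in
/-- A subgroup of the image of a homomorphism gives a section. -/
theorem exists_section_of_range {G S X : Type*} [Group G] [Group S] [Group X] (H : Subgroup G)
    (φ : H →* S) (M : Subgroup φ.range) (e : M ≃* X) :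
    ∃ (Kk L : Subgroup G) (_ : (L.subgroupOf Kk).Normal), Kk ≤ H ∧
      Nonempty ((Kk ⧸ L.subgroupOf Kk) ≃* X) := by
  set Kk := (M.comap φ.rangeRestrict).map H.subtype
  let ψ : Kk →* M := (φ.rangeRestrict.comp (Subgroup.inclusion (Subgroup.map_subtype_le _))).codRestrict M
    (fun k => by
      obtain ⟨w, hw, hwk⟩ := k.2
      have : Subgroup.inclusion (Subgroup.map_subtype_le _) k = w := Subtype.ext hwk.symm
      rw [MonoidHom.comp_apply, this]
      exact hw)
  have hψ : Function.Surjective ψ := by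
    rintro ⟨m, hm⟩
    obtain ⟨w, rfl⟩ := φ.rangeRestrict_surjective m
    exact ⟨⟨w, Subgroup.mem_map_of_mem _ hm⟩, Subtype.ext rfl⟩
  have hL : (ψ.ker.map Kk.subtype).subgroupOf Kk = ψ.ker :=
    Subgroup.comap_map_eq_self_of_injective Kk.subtype_injective _
  have hn : ((ψ.ker.map Kk.subtype).subgroupOf Kk).Normal := by rw [hL]; exact ψ.normal_ker
  exact ⟨Kk, ψ.ker.map Kk.subtype, hn, Subgroup.map_subtype_le _,
    ⟨((QuotientGroup.quotientMulEquivOfEq hL).trans
      (QuotientGroup.quotientKerEquivOfSurjective ψ hψ)).trans e⟩⟩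

omit [Fact p.Prime] [CharP K p] in
/-- If all `2`-subgroups are abelian, so are those of every homomorphic image. -/
theorem commutative_two_subgroups_range {H S : Type*} [Group H] [Finite H] [Group S] (φ : H →* S)
    (hR : ∀ R : Subgroup H, IsPGroup 2 R → IsMulCommutative R) :
    ∀ R : Subgroup φ.range, IsPGroup 2 R → IsMulCommutative R := by
  intro R hRp
  haveI : Finite φ.range := Finite.of_surjective _ φ.rangeRestrict_surjective
  obtain ⟨T, hT⟩ := hRp.exists_le_sylow
  obtain ⟨U, hU⟩ := Sylow.mapSurjective_surjective φ.rangeRestrict_surjective 2 T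
  have hUc : IsMulCommutative (U : Subgroup H) := hR _ U.2
  refine Subgroup.le_centralizer_iff_isMulCommutative.1 (fun x hx y hy => ?_)
  have hx' := hT hx
  have hy' := hT hy
  rw [← hU] at hx' hy'
  obtain ⟨x₀, hx₀, rfl⟩ := hx'
  obtain ⟨y₀, hy₀, rfl⟩ := hy'
  change φ.rangeRestrict y₀ * φ.rangeRestrict x₀ = φ.rangeRestrict x₀ * φ.rangeRestrict y₀
  rw [← map_mul, ← map_mul, setLike_mul_comm (s := (U : Subgroup H)) hy₀ hx₀]

omit K in
/-- An element that is not a `p`-element survives in some two-dimensional piece over an algebraically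
closed field. -/
theorem exists_hom {G : Type*} [Group G] [Finite G] {q : ℕ} [Fact q.Prime] (V H : Subgroup G)
    (hV : Cfsg.IsElementaryAbelian q V) (hHV : H ≤ Subgroup.normalizer (V : Set G))
    (hf : H ⊓ Subgroup.centralizer (V : Set G) = ⊥) (a b : H) (hgen : Subgroup.closure {a, b} = ⊤)
    (ha : ⁅⁅V, Subgroup.zpowers (a : G)⁆, Subgroup.zpowers (a : G)⁆ = ⊥)
    (hb : ⁅⁅V, Subgroup.zpowers (b : G)⁆, Subgroup.zpowers (b : G)⁆ = ⊥) (h₀ : H)
    (hnp : ∀ n, h₀ ^ q ^ n ≠ 1) :
    ∃ φ : H →* SpecialLinearGroup (Fin 2) (AlgebraicClosure (ZMod q)),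
      φ a ^ q = 1 ∧ φ b ^ q = 1 ∧ ∀ n, φ h₀ ^ q ^ n ≠ 1 := by
  obtain ⟨n, ρ, hρ, hq⟩ := QuadRep.exists_matrix_rep V H hV hHV hf
  haveI : CharP (AlgebraicClosure (ZMod q)) q :=
    charP_of_injective_algebraMap (algebraMap (ZMod q) (AlgebraicClosure (ZMod q))).injective q
  let ι : Matrix (Fin n) (Fin n) (ZMod q) →+*
      Module.End (AlgebraicClosure (ZMod q)) (Fin n → AlgebraicClosure (ZMod q)) :=
    (Matrix.toLinAlgEquiv' (R := AlgebraicClosure (ZMod q)) (n := Fin n)).toRingEquiv.toRingHom.comp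
      (algebraMap (ZMod q) (AlgebraicClosure (ZMod q))).mapMatrix
  have hι : Function.Injective ι := by
    intro A B h
    have h' := (Matrix.toLinAlgEquiv' (R := AlgebraicClosure (ZMod q)) (n := Fin n)).injective h
    ext i j
    exact (algebraMap (ZMod q) (AlgebraicClosure (ZMod q))).injective (congrFun (congrFun h' i) j)
  let ρK : H →* Module.End (AlgebraicClosure (ZMod q)) (Fin n → AlgebraicClosure (ZMod q)) :=
    ι.toMonoidHom.comp ρ
  have hquad : ∀ g : H, (ρ g - 1) * (ρ g - 1) = 0 → (ρK g - 1) * (ρK g - 1) = 0 := fun g hg => by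
    have h := congrArg ι hg
    simp only [map_mul, map_sub, map_one, map_zero] at h
    exact h
  refine QuadRep.exists_sl2_hom (orderOf_pos (a * b)) (IsAlgClosed.splits _) hgen
    (pow_orderOf_eq_one _) h₀ _ ρK (hquad a (hq a ha)) (hquad b (hq b hb)) fun m hm => hnp m ?_
  apply hρ
  apply hι
  rw [map_pow, map_one, map_pow, map_one]
  exact hm

omit [CharP K p] [Fact p.Prime] in
/-- A subgroup generated by two elements is generated by them intrinsically. -/
theorem closure_pair_eq_top {G : Type*} [Group G] {H : Subgroup G} {a b : G}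
    (hab : H = Subgroup.closure {a, b}) (ha : a ∈ H) (hb : b ∈ H) :
    Subgroup.closure ({⟨a, ha⟩, ⟨b, hb⟩} : Set H) = ⊤ := by
  apply Subgroup.map_injective H.subtype_injective
  rw [MonoidHom.map_closure, Set.image_pair, ← MonoidHom.range_eq_map, Subgroup.range_subtype]
  exact hab.symm

omit K in
/-- Two quadratic elements generating a non-`p`-group force a non-abelian `2`-subgroup. -/
theorem not_abelian {G : Type*} [Group G] [Finite G] {q : ℕ} [Fact q.Prime] (hq : q ≠ 2)
    (V H : Subgroup G) (hV : Cfsg.IsElementaryAbelian q V) (hHV : H ≤ Subgroup.normalizer (V : Set G))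
    (hf : H ⊓ Subgroup.centralizer (V : Set G) = ⊥) (a b : H) (hgen : Subgroup.closure {a, b} = ⊤)
    (ha : ⁅⁅V, Subgroup.zpowers (a : G)⁆, Subgroup.zpowers (a : G)⁆ = ⊥)
    (hb : ⁅⁅V, Subgroup.zpowers (b : G)⁆, Subgroup.zpowers (b : G)⁆ = ⊥) (hnp : ¬ IsPGroup q H) :
    ¬ ∀ R : Subgroup H, IsPGroup 2 R → IsMulCommutative R := by
  intro hR
  obtain ⟨h₀, hh₀⟩ : ∃ h₀ : H, ∀ n, h₀ ^ q ^ n ≠ 1 := by
    by_contra h
    exact hnp fun g => by_contra fun hg => h ⟨g, fun n hn => hg ⟨n, hn⟩⟩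
  obtain ⟨φ, hφa, hφb, hφ⟩ := exists_hom V H hV hHV hf a b hgen ha hb h₀ hh₀
  haveI : CharP (AlgebraicClosure (ZMod q)) q :=
    charP_of_injective_algebraMap (algebraMap (ZMod q) (AlgebraicClosure (ZMod q))).injective q
  haveI : Finite φ.range := Finite.of_surjective _ φ.rangeRestrict_surjective
  exact SL2U.not_abelian_two hq φ.range ⟨a, rfl⟩ ⟨b, rfl⟩ hφa hφb (not_commute hgen φ hφa hφb hφ)
    (commutative_two_subgroups_range φ hR)

end Cfsg.Agent.H34.QuadPair
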