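import Cfsg.Agent.H19.Cores
import Cfsg.Agent.H34.Thompson

/-! The stable normal closure of `Ω₁(Z(S))`. -/

set_option autoImplicit false

namespace Cfsg.Agent.H34

open Subgroup
open Cfsg
open scoped commutatorElement

universe u

variable {G G' : Type*} [Group G] [Group G'] {p : ℕ}

/-- The centre of a subgroup commutes with injective maps. -/
theorem map_inf_centralizer (f : G →* G') (hf : Function.Injective f) (J : Subgroup G) :
    (J ⊓ centralizer (J : Set G)).map f = J.map f ⊓ centralizer ((J.map f : Subgroup G') : Set G') := by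
  ext x; constructor
  · rintro ⟨a, ⟨ha, hc⟩, rfl⟩
    refine ⟨mem_map_of_mem f ha, ?_⟩
    rintro _ ⟨b, hb, rfl⟩
    rw [← map_mul, ← map_mul, hc b hb]
  · rintro ⟨⟨a, ha, rfl⟩, hc⟩
    exact ⟨a, ⟨ha, fun b hb => hf (by rw [map_mul, map_mul, hc _ (mem_map_of_mem f hb)])⟩, rfl⟩

/-- `omegaOne` of a normal subgroup is normal. -/
theorem omegaOne_normal {N : Subgroup G} (h : N.Normal) : (omegaOne p N).Normal := by
  refine ⟨fun x hx g => ?_⟩
  have : g * x * g⁻¹ ∈ (omegaOne p N).map (MulAut.conj g).toMonoidHom := ⟨x, hx, rfl⟩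
  rw [map_omegaOne _ (MulAut.conj g).injective] at this
  refine omegaOne_mono ?_ this
  rintro _ ⟨y, hy, rfl⟩
  exact h.conj_mem y hy g

/-- The normal closure of the centre: `Ω₁(Z(S)) ≤ Ω₁(Z(J(S)))`. -/
theorem omegaOne_center_le_omegaCenterThompson [Finite G] :
    omegaOne p (center G) ≤ omegaCenterThompson p G := by
  refine (Subgroup.closure_le _).2 fun z hz => mem_omegaOne ⟨?_, ?_⟩ hz.2
  · obtain ⟨A, hA⟩ := exists_maxElementaryAbelian (G := G) p
    have hB : IsElementaryAbelian p (zpowers z) := ⟨inferInstance, fun a ha => by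
      obtain ⟨k, rfl⟩ := mem_zpowers_iff.1 ha
      rw [← zpow_natCast, ← zpow_mul, mul_comm, zpow_mul, zpow_natCast, hz.2, one_zpow]⟩
    exact le_sSup (s := maxElementaryAbelianSubgroups p G) hA
      (le_of_mem_max hA hB (fun a _ b hb => by
        have h : zpowers z ≤ center G := zpowers_le.2 hz.1
        exact ((mem_center_iff.1 (h hb)) a).symm) (mem_zpowers z))
  · exact fun a _ => mem_center_iff.1 hz.1 a

variable {S S' : Type u} [Group S] [Group S']

/-- Images of `Ω₁(Z(J(S)))` under isomorphisms. -/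
theorem map_omegaCenterThompson (η : S ≃* S') :
    (omegaCenterThompson p S).map η.toMonoidHom = omegaCenterThompson p S' := by
  rw [omegaCenterThompson, omegaCenterThompson, map_omegaOne _ η.injective,
    map_inf_centralizer _ η.injective, map_thompsonSubgroup]

/-- `Ω₁(Z(J(S)))` is in the defining family. -/
theorem stableNormalClosure_le [Finite S] : stableNormalClosure p S ≤ omegaCenterThompson p S := by
  refine sInf_le ⟨omegaOne_center_le_omegaCenterThompson, fun H _ τ hτ => ?_⟩
  rw [omegaCenterThompson, map_omegaOne _ hτ.1, map_inf_centralizer _ hτ.1]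
  haveI := hτ.2.2.2.2.1
  exact omegaOne_normal inferInstance

/-- The stable normal closure contains `Ω₁(Z(S))`. -/
theorem omegaOne_center_le_stableNormalClosure :
    omegaOne p (center S) ≤ stableNormalClosure p S :=
  le_sInf fun _ hW => hW.1

/-- The stable normal closure has normal image under every stable embedding. -/
theorem stableNormalClosure_map_normal [Finite S] {H : Type u} [Group H] {τ : S →* H}
    (hτ : IsStableEmbedding p τ) : ((stableNormalClosure p S).map τ).Normal := by
  refine ⟨?_⟩
  rintro _ ⟨x, hx, rfl⟩ g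
  have hmem : ∀ W ∈ {W : Subgroup S | omegaOne p (center S) ≤ W ∧
      ∀ (H : Type u) [Group H] (τ : S →* H), IsStableEmbedding p τ → (W.map τ).Normal},
      g * τ x * g⁻¹ ∈ W.map τ := fun W hW =>
    (hW.2 H τ hτ).conj_mem _ (mem_map_of_mem τ (mem_sInf.1 hx W hW)) g
  obtain ⟨y, -, hy⟩ := hmem (omegaCenterThompson p S) ⟨omegaOne_center_le_omegaCenterThompson,
    fun H _ τ hτ => by
      rw [omegaCenterThompson, map_omegaOne _ hτ.1, map_inf_centralizer _ hτ.1]
      haveI := hτ.2.2.2.2.1
      exact omegaOne_normal inferInstance⟩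
  refine ⟨y, mem_sInf.2 fun W hW => ?_, hy⟩
  obtain ⟨y', hy', hy''⟩ := hmem W hW
  rwa [hτ.1 (hy.trans hy''.symm)]

/-- One inclusion of the transport of the stable normal closure along an isomorphism. -/
theorem map_stableNormalClosure_le (η : S ≃* S') :
    (stableNormalClosure p S).map η.toMonoidHom ≤ stableNormalClosure p S' := by
  refine le_sInf fun W hW => ?_
  rw [map_le_iff_le_comap]
  refine sInf_le ⟨?_, fun H _ τ hτ => ?_⟩
  · rw [← map_le_iff_le_comap, map_omegaOne _ η.injective]
    refine le_trans (omegaOne_mono ?_) hW.1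
    rintro _ ⟨z, hz, rfl⟩
    refine mem_center_iff.2 fun b => ?_
    obtain ⟨a, rfl⟩ := η.surjective b
    change η a * η z = η z * η a
    rw [← map_mul, ← map_mul, mem_center_iff.1 hz a]
  · obtain ⟨h1, h2, ⟨P, hP⟩, h4, h5, h6⟩ := hτ
    have hinj : Function.Injective (τ.comp η.symm.toMonoidHom) := h1.comp η.symm.injective
    have hst : IsStableEmbedding p (τ.comp η.symm.toMonoidHom) := by
      refine ⟨hinj, h2, ⟨P, ?_⟩, h4, ?_, fun V _ hV => h6 V ?_⟩
      · rw [hP]
        ext x
        exact ⟨fun ⟨a, ha⟩ => ⟨η a, by simpa using ha⟩, fun ⟨a, ha⟩ => ⟨η.symm a, ha⟩⟩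
      · rwa [← map_map, map_thompsonSubgroup]
      · rwa [← map_map, map_omegaCenterThompson] at hV
    have := hW.2 H _ hst
    rw [← map_map] at this
    exact (comap_equiv_eq_map_symm η W).symm ▸ this

/-- The stable normal closure is transported by isomorphisms. -/
theorem map_stableNormalClosure (η : S ≃* S') :
    (stableNormalClosure p S).map η.toMonoidHom = stableNormalClosure p S' := by
  refine le_antisymm (map_stableNormalClosure_le η) fun x hx => ?_
  exact ⟨η.symm x, map_stableNormalClosure_le η.symm (mem_map_of_mem _ hx), η.apply_symm_apply x⟩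

/-- The stable normal closure is characteristic. -/
theorem stableNormalClosure_characteristic : (stableNormalClosure p S).Characteristic :=
  characteristic_iff_map_eq.2 fun η => map_stableNormalClosure η

/-- The stable normal closure is elementary abelian. -/
theorem stableNormalClosure_isElementaryAbelian [Finite S] :
    IsElementaryAbelian p (stableNormalClosure p S) := by
  haveI := isMulCommutative_inf_centralizer (thompsonSubgroup p S)
  exact isElementaryAbelian_mono omegaOne_isElementaryAbelian stableNormalClosure_le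

/-- A nontrivial finite `p`-group has nontrivial stable normal closure. -/
theorem stableNormalClosure_ne_bot [Finite S] [Fact p.Prime] (hS : IsPGroup p S) [Nontrivial S] :
    stableNormalClosure p S ≠ ⊥ := by
  intro h
  haveI := hS.center_nontrivial
  obtain ⟨k, hk⟩ := IsPGroup.iff_card.1 (hS.to_subgroup (center S))
  have hdvd : p ∣ Nat.card ↥(center S) := by
    rw [hk]
    refine dvd_pow_self p ?_
    rintro rfl
    exact absurd hk (by rw [pow_zero]; exact (Finite.one_lt_card (α := ↥(center S))).ne')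
  obtain ⟨z, hz⟩ := exists_prime_orderOf_dvd_card' p hdvd
  have : (z : S) ∈ stableNormalClosure p S :=
    omegaOne_center_le_stableNormalClosure (mem_omegaOne z.2 (by
      rw [← hz, ← orderOf_coe, pow_orderOf_eq_one]))
  rw [h, mem_bot] at this
  rw [show z = 1 from Subtype.ext this, orderOf_one] at hz
  exact (Fact.out : p.Prime).one_lt.ne hz

/-- Quadratic action only depends on the image modulo the centraliser. -/
theorem quadratic_sup_centralizer (V : Subgroup G) [V.Normal] (t : G)
    (h : ⁅⁅V, zpowers t⁆, zpowers t⁆ = ⊥) :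
    ⁅⁅V, zpowers t ⊔ centralizer (V : Set G)⁆, zpowers t ⊔ centralizer (V : Set G)⁆ = ⊥ := by
  have hM : ⁅V, zpowers t ⊔ centralizer (V : Set G)⁆ ≤ ⁅V, zpowers t⁆ := by
    refine commutator_le.2 fun v hv g hg => ?_
    obtain ⟨a, ha, c, hc, rfl⟩ := mem_sup_of_normal_right.1 hg
    have : ⁅v, a * c⁆ = ⁅v, a⁆ := by
      have h1 : c * v⁻¹ * c⁻¹ = v⁻¹ := by
        rw [← hc _ (inv_mem hv), mul_inv_cancel_right]
      calc ⁅v, a * c⁆ = v * a * (c * v⁻¹ * c⁻¹) * a⁻¹ := by simp [commutatorElement_def, mul_assoc]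
        _ = _ := by rw [h1, commutatorElement_def]
    rw [this]
    exact commutator_mem_commutator hv ha
  refine eq_bot_iff.2 ((commutator_mono hM le_rfl).trans ?_)
  rw [le_bot_iff, commutator_eq_bot_iff_le_centralizer]
  rw [commutator_eq_bot_iff_le_centralizer] at h
  have hMV : ⁅V, zpowers t⁆ ≤ V := commutator_le_left V _
  rw [le_centralizer_iff]
  exact sup_le (le_centralizer_iff.1 h) (centralizer_le hMV)

/-- In a stably embedded group, elements quadratic on the closure centralise it. -/
theorem stableNormalClosure_le_centralizer [Finite S] [Fact p.Prime] :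
    stableNormalClosure p S ≤ centralizer
      {x : S | ⁅⁅stableNormalClosure p S, zpowers x⁆, zpowers x⁆ = ⊥} := by
  set W := stableNormalClosure p S
  set Q := {x : S | ⁅⁅W, zpowers x⁆, zpowers x⁆ = ⊥}
  refine le_trans (sInf_le (a := W ⊓ centralizer Q) ⟨le_inf omegaOne_center_le_stableNormalClosure
    fun z hz x _ => mem_center_iff.1 ((omegaOne_le _) hz) x, fun H _ τ hτ => ?_⟩) inf_le_right
  obtain ⟨hinj, hfin, ⟨P, hP⟩, -, -, hstab⟩ := id hτ
  haveI hVn := stableNormalClosure_map_normal hτ
  set V := W.map τ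
  set C := centralizer (V : Set H)
  set D := (pCore p (H ⧸ C)).comap (QuotientGroup.mk' C)
  have hD : D.Normal := (H19.pCore_normal p _).comap _
  have hDP : D ≤ τ.range ⊔ C := by
    have h1 : pCore p (H ⧸ C) ≤ τ.range.map (QuotientGroup.mk' C) := by
      refine le_trans (H19.pCore_le_sylow (P.mapSurjective (QuotientGroup.mk'_surjective C))) ?_
      rw [← hP]
      simp
    refine (comap_mono h1).trans (le_of_eq ?_)
    rw [comap_map_eq, QuotientGroup.ker_mk']
  -- conjugates of quadratic elements fix the images of `W ⊓ centralizer Q`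
  have key : ∀ y ∈ Q, ∀ h : H, ∀ u ∈ W ⊓ centralizer Q,
      Commute (h * τ y * h⁻¹) (τ u) := by
    intro y hy h u hu
    have hquad : ⁅⁅V, zpowers (τ y)⁆, zpowers (τ y)⁆ = ⊥ := by
      rw [← MonoidHom.map_zpowers, ← map_commutator, ← map_commutator, hy, Subgroup.map_bot]
    have hmem : h * τ y * h⁻¹ ∈ D :=
      hD.conj_mem _ (hstab V (map_mono stableNormalClosure_le) (τ y) hquad) h
    obtain ⟨_, ⟨s, rfl⟩, c, hc, hsc⟩ := mem_sup_of_normal_right.1 (hDP hmem)
    have hquad' : ⁅⁅V, zpowers (h * τ y * h⁻¹)⁆, zpowers (h * τ y * h⁻¹)⁆ = ⊥ := by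
      have h1 := congrArg (Subgroup.map (MulAut.conj h).toMonoidHom) hquad
      rw [map_commutator, map_commutator, Subgroup.map_bot, MonoidHom.map_zpowers] at h1
      rwa [show V.map (MulAut.conj h).toMonoidHom = V from ?_] at h1
      exact Normal.map_conj_eq V h
    have hs : s ∈ Q := by
      have hsT : zpowers (τ s) ≤ zpowers (h * τ y * h⁻¹) ⊔ C := by
        refine zpowers_le.2 ?_
        rw [show τ s = (h * τ y * h⁻¹) * c⁻¹ by rw [← hsc]; simp]
        exact mul_mem (mem_sup_left (mem_zpowers _)) (mem_sup_right (inv_mem hc))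
      have h2 : ⁅⁅V, zpowers (τ s)⁆, zpowers (τ s)⁆ = ⊥ :=
        eq_bot_iff.2 ((commutator_mono (commutator_mono le_rfl hsT) hsT).trans
          (quadratic_sup_centralizer V _ hquad').le)
      rw [← MonoidHom.map_zpowers, ← map_commutator, ← map_commutator] at h2
      exact (Subgroup.map_eq_bot_iff_of_injective _ hinj).1 h2
    rw [← hsc]
    exact ((Commute.map (hu.2 s hs) τ)).mul_left (hc _ (mem_map_of_mem τ hu.1)).symm
  refine ⟨?_⟩
  rintro _ ⟨u, hu, rfl⟩ g
  obtain ⟨w, hw, hwu⟩ := hVn.conj_mem _ (mem_map_of_mem τ hu.1) g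
  refine ⟨w, ⟨hw, fun y hy => hinj ?_⟩, hwu⟩
  rw [map_mul, map_mul, hwu]
  have := key y hy g⁻¹ u hu
  rw [inv_inv] at this
  have h1 := congrArg (fun a => g * a * g⁻¹) this.eq
  simpa [mul_assoc] using h1

end Cfsg.Agent.H34
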