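import Cfsg.Agent.H34.StableClosure
import Cfsg.Agent.H34.Quotient
import Cfsg.Agent.H22.Frobenius

/-! The stable normal closure of a subgroup, seen in the ambient group. -/

set_option autoImplicit false

namespace Cfsg.Agent.H34

open Subgroup
open Cfsg

universe u

variable {G G' : Type u} [Group G] [Group G'] {p : ℕ}

/-- The stable normal closure of a subgroup, seen in the ambient group. -/
abbrev stableOf (p : ℕ) (P : Subgroup G) : Subgroup G := (stableNormalClosure p ↥P).map P.subtype

/-- It is transported by homomorphisms injective on the subgroup. -/
theorem map_stableOf (f : G →* G') (U : Subgroup G) (h : U ⊓ f.ker = ⊥) :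
    (stableOf p U).map f = stableOf p (U.map f) := by
  have hinj : Function.Injective (f.comp U.subtype) := by
    rw [← MonoidHom.ker_eq_bot_iff, eq_bot_iff]
    intro x hx
    have : (x : G) ∈ U ⊓ f.ker := ⟨x.2, hx⟩
    rw [h, mem_bot] at this
    exact Subtype.ext this
  have hr : (f.comp U.subtype).range = U.map f := by
    rw [MonoidHom.range_comp, range_subtype]
  let e := MonoidHom.ofInjective hinj
  have key := map_stableNormalClosure (p := p) e
  calc (stableOf p U).map f
      = ((stableNormalClosure p ↥U).map e.toMonoidHom).map (f.comp U.subtype).range.subtype := by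
        rw [stableOf, Subgroup.map_map, Subgroup.map_map]; rfl
    _ = stableOf p (f.comp U.subtype).range := by rw [key]
    _ = _ := by rw [hr]

/-- Injective version. -/
theorem map_stableOf_of_injective (f : G →* G') (hf : Function.Injective f) (U : Subgroup G) :
    (stableOf p U).map f = stableOf p (U.map f) :=
  map_stableOf f U (by rw [(MonoidHom.ker_eq_bot_iff f).2 hf, inf_bot_eq])

/-- Normalisers of the subgroup normalise its stable closure. -/
theorem normalizer_le_normalizer_stableOf (U : Subgroup G) :
    normalizer (U : Set G) ≤ normalizer ((stableOf p U : Subgroup G) : Set G) := by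
  intro g hg
  rw [mem_normalizer_iff_map_conj_eq] at hg ⊢
  exact (map_stableOf_of_injective (p := p) (MulAut.conj g).toMonoidHom (MulAut.conj g).injective U).trans
    (congrArg _ hg)

/-- It lies in the subgroup. -/
theorem stableOf_le (U : Subgroup G) : stableOf p U ≤ U := map_subtype_le _

/-- It is nontrivial for a nontrivial `p`-subgroup. -/
theorem stableOf_ne_bot [Finite G] [Fact p.Prime] {U : Subgroup G} (hU : IsPGroup p U) (h : U ≠ ⊥) :
    stableOf p U ≠ ⊥ := by
  have : Nontrivial U := U.nontrivial_iff_ne_bot.2 h
  rw [stableOf, Ne, Subgroup.map_eq_bot_iff_of_injective _ U.subtype_injective]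
  exact stableNormalClosure_ne_bot hU

/-- Normal complements of normalisers pull back along injective maps. -/
theorem hasNormalPComplement_normalizer_of_map [Finite G'] [Fact p.Prime] (f : G →* G')
    (hf : Function.Injective f) (W : Subgroup G)
    (h : HasNormalPComplement p ↥(normalizer ((W.map f : Subgroup G') : Set G'))) :
    HasNormalPComplement p ↥(normalizer (W : Set G)) := by
  let φ : normalizer (W : Set G) →* normalizer ((W.map f : Subgroup G') : Set G') :=
    (f.comp (Subgroup.subtype _)).codRestrict _ fun x => le_normalizer_map f (mem_map_of_mem f x.2)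
  exact H22.hasNormalPComplement_of_injective φ
    (fun x y e => Subtype.ext (hf (congrArg Subtype.val e))) h

/-- The hypothesis passes from one Sylow subgroup to every other. -/
theorem hasNormalPComplement_normalizer_sylow [Finite G] [Fact p.Prime] (S T : Sylow p G)
    (h : HasNormalPComplement p ↥(normalizer ((stableOf p (S : Subgroup G) : Subgroup G) : Set G))) :
    HasNormalPComplement p ↥(normalizer ((stableOf p (T : Subgroup G) : Subgroup G) : Set G)) := by
  obtain ⟨g, rfl⟩ := MulAction.exists_smul_eq G T S
  refine hasNormalPComplement_normalizer_of_map (MulAut.conj g).toMonoidHom (MulAut.conj g).injective _ ?_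
  rwa [map_stableOf_of_injective _ (MulAut.conj g).injective]

end Cfsg.Agent.H34
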