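import Cfsg.Agent.H34.StableOf
import Cfsg.Agent.H20.Sylow
import Cfsg.Agent.H59.PSolvable
import Cfsg.Agent.S0072
import Cfsg.Agent.S0624
import Cfsg.Agent.S0626

/-! The normal `p`-complement theorem for the stable normal closure. -/

set_option autoImplicit false

namespace Cfsg.Agent.H34

open Subgroup
open Cfsg
open scoped Pointwise

universe u

variable {p : ℕ} [Fact p.Prime]

/-- A normal subgroup of order prime to `p` whose quotient has a normal complement. -/
theorem hasNormalPComplement_of_quotient {G : Type u} [Group G] [Finite G] (N : Subgroup G) [N.Normal]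
    (hN : (Nat.card N).Coprime p) (h : HasNormalPComplement p (G ⧸ N)) : HasNormalPComplement p G := by
  obtain ⟨T, M, hMn, hc⟩ := h
  set π := QuotientGroup.mk' N
  set M' := M.comap π
  haveI : M'.Normal := hMn.comap π
  refine H22.hasNormalPComplement_of_normal M' ?_ ?_
  · intro hd
    have hcard : Nat.card M' = Nat.card N * Nat.card M := by
      have h1 : Nat.card ↥(M'.map π) * Nat.card ↥(π.ker ⊓ M') = Nat.card M' := by
        rw [← relIndex_ker, ← inf_relIndex_right, mul_comm, ← relIndex_bot_left, ← relIndex_bot_left,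
          relIndex_mul_relIndex _ _ _ bot_le inf_le_right]
      rw [map_comap_eq_self_of_surjective (QuotientGroup.mk'_surjective N),
        inf_eq_left.2 (MonoidHom.ker_le_comap π M), QuotientGroup.ker_mk'] at h1
      rw [← h1, mul_comm]
    rw [hcard] at hd
    have hpN : ¬ p ∣ Nat.card N := (Nat.Prime.coprime_iff_not_dvd Fact.out).1 hN.symm
    have h2 : (T : Subgroup (G ⧸ N)).index = Nat.card M := hc.index_eq_card
    exact T.not_dvd_index (h2 ▸ ((Fact.out : p.Prime).dvd_mul.1 hd).resolve_left hpN)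
  · refine IsPGroup.of_card (n := (Nat.card ↥(T : Subgroup (G ⧸ N))).factorization p) ?_
    obtain ⟨k, hk⟩ := IsPGroup.iff_card.1 T.2
    rw [← Subgroup.index_eq_card, Subgroup.index_comap_of_surjective _ (QuotientGroup.mk'_surjective N),
      hc.symm.index_eq_card, hk, Nat.Prime.factorization_pow Fact.out, Finsupp.single_eq_same]

/-- In a group with a normal complement to a Sylow subgroup containing `Q`, with `C(Q) ≤ Q` for the normal
`p`-subgroup `Q`, everything is a `p`-group. -/
theorem isPGroup_of_centralizer_le {G : Type u} [Group G] [Finite G] (M Q : Subgroup G) [Q.Normal]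
    (hQ : IsPGroup p Q) (hQM : Q ≤ M) (hc : centralizer (Q : Set G) ≤ Q)
    (h : HasNormalPComplement p M) : IsPGroup p M := by
  obtain ⟨P, N, hNn, hcN⟩ := h
  suffices N = ⊥ by
    subst this
    rw [Subgroup.isComplement'_bot_left] at hcN
    exact (hcN ▸ P.2 : IsPGroup p ↥(⊤ : Subgroup M)).of_equiv Subgroup.topEquiv
  have hNcop : (Nat.card N).Coprime p := by
    rw [Nat.coprime_comm, Nat.Prime.coprime_iff_not_dvd Fact.out, ← hcN.index_eq_card]
    exact P.not_dvd_index
  have hQ' : IsPGroup p ↥(Q.subgroupOf M) := hQ.comap_of_injective _ M.subtype_injective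
  rw [eq_bot_iff]
  intro n hn
  have hnC : (n : G) ∈ centralizer (Q : Set G) := by
    intro q hq
    have hm : (⟨q, hQM hq⟩ : M) * n * (⟨q, hQM hq⟩ : M)⁻¹ * n⁻¹ ∈ Q.subgroupOf M ⊓ N := by
      refine mem_inf.2 ⟨?_, N.mul_mem (hNn.conj_mem n hn _) (N.inv_mem hn)⟩
      rw [mem_subgroupOf]
      simp only [Subgroup.coe_mul, Subgroup.coe_inv, mul_assoc]
      exact Q.mul_mem hq (by simpa [mul_assoc] using Subgroup.Normal.conj_mem inferInstance _ (Q.inv_mem hq) (n : G))
    rw [H19.inf_eq_bot_of_isPGroup_coprime hQ' hNcop, mem_bot, mul_inv_eq_one, mul_inv_eq_iff_eq_mul] at hm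
    exact congrArg Subtype.val hm
  have : n ∈ Q.subgroupOf M ⊓ N := ⟨hc hnC, hn⟩
  rw [H19.inf_eq_bot_of_isPGroup_coprime hQ' hNcop] at this
  exact this

/-- The normal `p`-complement theorem. -/
theorem hasNormalPComplement_of_stable (hp : p ≠ 2) {G : Type u} [Group G] [Finite G] (S : Sylow p G)
    (hN : HasNormalPComplement p ↥(normalizer ((stableOf p (S : Subgroup G) : Subgroup G) : Set G))) :
    HasNormalPComplement p G := by
  induction hn : Nat.card G using Nat.strong_induction_on generalizing G with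
  | _ n ih =>
  subst hn
  -- proper subgroups containing a Sylow subgroup
  have hsub : ∀ (M : Subgroup G) (T : Sylow p G), M ≠ ⊤ → (T : Subgroup G) ≤ M → HasNormalPComplement p M := by
    intro M T hM hTM
    refine ih _ (lt_of_le_of_ne (Subgroup.card_le_card_group M) fun h => hM (Subgroup.eq_top_of_card_eq M h))
      (T.subtype hTM) ?_ rfl
    refine hasNormalPComplement_normalizer_of_map M.subtype M.subtype_injective _ ?_
    rw [map_stableOf_of_injective _ M.subtype_injective, Sylow.coe_subtype, subgroupOf_map_subtype,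
      inf_eq_left.2 hTM]
    exact hasNormalPComplement_normalizer_sylow S T hN
  by_contra hG
  -- trivial `p'`-core
  have hO : pPrimeCore p G = ⊥ := by
    by_contra hO
    set N := pPrimeCore p G
    haveI hNn : N.Normal := H19.pPrimeCore_normal p G
    have hNc : (Nat.card N).Coprime p := H19.pPrimeCore_coprime p
    refine hG (hasNormalPComplement_of_quotient N hNc ?_)
    have hlt : Nat.card (G ⧸ N) < Nat.card G := by
      rw [Subgroup.card_eq_card_quotient_mul_card_subgroup N]
      exact lt_mul_of_one_lt_right Nat.card_pos ((one_lt_card_iff_ne_bot N).2 hO)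
    refine ih _ hlt (S.mapSurjective (QuotientGroup.mk'_surjective N)) ?_ rfl
    set π := QuotientGroup.mk' N
    have hker : (S : Subgroup G) ⊓ π.ker = ⊥ := by
      rw [QuotientGroup.ker_mk']; exact inf_eq_bot_of_coprime S.2 hNc
    have hW : (stableOf p (S : Subgroup G)).map π =
        stableOf p ((S.mapSurjective (QuotientGroup.mk'_surjective N) : Sylow p (G ⧸ N)) : Subgroup (G ⧸ N)) :=
      map_stableOf π _ hker
    rw [← hW]
    let φ : normalizer ((stableOf p (S : Subgroup G) : Subgroup G) : Set G) →*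
        normalizer (((stableOf p (S : Subgroup G)).map π : Subgroup (G ⧸ N)) : Set (G ⧸ N)) :=
      (π.comp (Subgroup.subtype _)).codRestrict _ fun x => le_normalizer_map π (mem_map_of_mem π x.2)
    refine H22.hasNormalPComplement_of_surjective φ ?_ hN
    rintro ⟨x, hx⟩
    obtain ⟨g, rfl⟩ := QuotientGroup.mk'_surjective N x
    obtain ⟨k, hk, hkg⟩ := exists_mem_normalizer_of_mk (S.2.to_le (stableOf_le _)) hNc hx
    refine ⟨⟨k * g, hkg⟩, Subtype.ext ?_⟩
    change π (k * g) = π g
    rw [map_mul, show π k = 1 from (QuotientGroup.eq_one_iff k).2 hk, one_mul]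
  -- `O_p(G) ≠ 1`
  obtain ⟨Q₀, ⟨hQ₀p, hQ₀1, hQ₀⟩, hmax⟩ := Set.exists_max_image
    {Q : Subgroup G | IsPGroup p Q ∧ Q ≠ ⊥ ∧ ¬ HasNormalPComplement p ↥(normalizer (Q : Set G))}
    (fun Q => (Nat.card ↥(normalizer (Q : Set G))).factorization p) (Set.toFinite _)
    (by
      by_contra h
      refine hG ((Cfsg.Agent.S0072.result p).2 fun Q h1 h2 => by_contra fun h3 => h ⟨Q, h1, h2, h3⟩))
  have htop : normalizer (Q₀ : Set G) = ⊤ := by
    by_contra hne
    set H := normalizer (Q₀ : Set G)
    obtain ⟨P⟩ : Nonempty (Sylow p H) := inferInstance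
    set P₁ := (P : Subgroup H).map H.subtype
    have hP₁ : IsPGroup p P₁ := P.2.map _
    obtain ⟨T, hT⟩ := hP₁.exists_le_sylow
    rcases eq_or_lt_of_le hT with heq | hlt
    · exact hQ₀ (hsub H T hne (heq ▸ map_subtype_le _))
    have hQP : Q₀ ≤ P₁ := by
      have h1 : Q₀.subgroupOf H ≤ (P : Subgroup H) :=
        (H19.le_pCore ((normal_subgroupOf_iff_le_normalizer le_normalizer).2 le_rfl)
          (hQ₀p.comap_of_injective _ H.subtype_injective)).trans (H19.pCore_le_sylow P)
      have h2 := Subgroup.map_mono (f := H.subtype) h1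
      rwa [subgroupOf_map_subtype, inf_eq_left.2 le_normalizer] at h2
    have hW1 : stableOf p P₁ ≠ ⊥ :=
      stableOf_ne_bot hP₁ fun h => hQ₀1 (le_bot_iff.1 (h ▸ hQP))
    have hcomp : HasNormalPComplement p ↥(normalizer ((stableOf p P₁ : Subgroup G) : Set G)) := by
      by_contra hc
      have h1 := hmax (stableOf p P₁) ⟨hP₁.to_le (stableOf_le _), hW1, hc⟩
      have h2 := H22.lt_inf_normalizer_of_lt T.2 hlt
      set R := (T : Subgroup G) ⊓ normalizer (P₁ : Set G)
      have hRN : R ≤ normalizer ((stableOf p P₁ : Subgroup G) : Set G) :=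
        inf_le_right.trans (normalizer_le_normalizer_stableOf _)
      obtain ⟨k, hk⟩ := IsPGroup.iff_card.1 (T.2.to_le (inf_le_left : R ≤ _))
      have h3 : k ≤ (Nat.card ↥(normalizer ((stableOf p P₁ : Subgroup G) : Set G))).factorization p :=
        ((Fact.out : p.Prime).pow_dvd_iff_le_factorization Nat.card_pos.ne').1 (hk ▸ card_dvd_of_le hRN)
      have h4 : Nat.card P₁ = p ^ (Nat.card H).factorization p := by
        rw [card_map_of_injective H.subtype_injective, P.card_eq_multiplicity]
      have h5 : Nat.card P₁ < Nat.card R :=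
        lt_of_le_of_ne (card_le_of_le h2.le) fun e => h2.ne (eq_of_le_of_card_ge h2.le e.ge)
      rw [hk, h4] at h5
      have := (Nat.pow_lt_pow_iff_right (Fact.out : p.Prime).one_lt).1 h5
      omega
    refine hQ₀ (ih _ (lt_of_le_of_ne (Subgroup.card_le_card_group H)
      fun h => hne (Subgroup.eq_top_of_card_eq H h)) P ?_ rfl)
    refine hasNormalPComplement_normalizer_of_map H.subtype H.subtype_injective _ ?_
    rw [map_stableOf_of_injective _ H.subtype_injective]
    exact hcomp
  set Q := pCore p G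
  haveI hQn : Q.Normal := H19.pCore_normal p G
  have hQp : IsPGroup p Q := H19.pCore_isPGroup p
  have hQ1 : Q ≠ ⊥ := fun h =>
    hQ₀1 (le_bot_iff.1 (h ▸ H19.le_pCore (normalizer_eq_top_iff.1 htop) hQ₀p))
  set π := QuotientGroup.mk' Q
  set T := S.mapSurjective (QuotientGroup.mk'_surjective Q)
  have hSQ : Q ≤ (S : Subgroup G) := H19.pCore_le_sylow S
  -- the quotient has a normal complement
  have hT1 : (T : Subgroup (G ⧸ Q)) ≠ ⊥ := by
    intro h
    change (S : Subgroup G).map π = ⊥ at h
    rw [Subgroup.map_eq_bot_iff, QuotientGroup.ker_mk'] at h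
    have hS : normalizer (((S : Subgroup G)) : Set G) = ⊤ :=
      normalizer_eq_top_iff.2 ((le_antisymm h hSQ).symm ▸ hQn)
    have htopN : normalizer ((stableOf p (S : Subgroup G) : Subgroup G) : Set G) = ⊤ :=
      eq_top_iff.2 (hS ▸ normalizer_le_normalizer_stableOf (p := p) _)
    exact hG (H22.hasNormalPComplement_of_injective
      (Subgroup.topEquiv (G := G)).symm.toMonoidHom (MulEquiv.injective _) (htopN ▸ hN))
  have hQcomp : HasNormalPComplement p (G ⧸ Q) := by
    have hlt : Nat.card (G ⧸ Q) < Nat.card G := by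
      rw [Subgroup.card_eq_card_quotient_mul_card_subgroup Q]
      exact lt_mul_of_one_lt_right Nat.card_pos ((one_lt_card_iff_ne_bot Q).2 hQ1)
    refine ih _ hlt T ?_ rfl
    set W := stableOf p (T : Subgroup (G ⧸ Q))
    set M := (normalizer (W : Set (G ⧸ Q))).comap π
    have hW1 : W ≠ ⊥ := stableOf_ne_bot T.2 hT1
    have hSM : (S : Subgroup G) ≤ M := map_le_iff_le_comap.1
      ((le_normalizer : (T : Subgroup (G ⧸ Q)) ≤ _).trans (normalizer_le_normalizer_stableOf _))
    have hM : M ≠ ⊤ := by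
      intro hM
      have hWn : W.Normal := by
        rw [← normalizer_eq_top_iff, eq_top_iff]
        intro x _
        obtain ⟨g, rfl⟩ := QuotientGroup.mk'_surjective Q x
        exact (show g ∈ M from hM ▸ mem_top g)
      have hle : W ≤ pCore p (G ⧸ Q) := H19.le_pCore hWn (T.2.to_le (stableOf_le _))
      rw [H19.pCore_quotient_pCore p] at hle
      exact hW1 (le_bot_iff.1 hle)
    refine H22.hasNormalPComplement_of_surjective (π.subgroupComap (normalizer (W : Set (G ⧸ Q)))) ?_
      (hsub M S hM hSM)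
    rintro ⟨x, hx⟩
    obtain ⟨g, rfl⟩ := QuotientGroup.mk'_surjective Q x
    exact ⟨⟨g, hx⟩, rfl⟩
  obtain ⟨K, hKn, hKc⟩ := (H22.hasNormalPComplement_iff_exists T).1 hQcomp
  have hKcop : (Nat.card K).Coprime p := by
    rw [Nat.coprime_comm, Nat.Prime.coprime_iff_not_dvd Fact.out, ← hKc.index_eq_card]
    exact T.not_dvd_index
  -- `C(Q) ≤ Q`
  have hsep : IsPSolvable p G := by
    refine ⟨3, ![⊥, Q, K.comap π, ⊤], rfl, rfl, ?_, ?_, ?_⟩
    · refine Fin.monotone_iff_le_succ.2 fun i => ?_
      fin_cases i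
      · exact bot_le
      · exact le_trans (QuotientGroup.ker_mk' Q).ge (MonoidHom.ker_le_comap π K)
      · exact le_top
    · intro i
      fin_cases i
      · exact (inferInstance : (⊥ : Subgroup G).Normal)
      · exact hQn
      · exact hKn.comap π
      · exact (inferInstance : (⊤ : Subgroup G).Normal)
    · intro i
      fin_cases i
      · exact Or.inl (by
          obtain ⟨k, hk⟩ := IsPGroup.iff_card.1 hQp
          exact ⟨k, (relIndex_bot_left Q).trans hk⟩)
      · refine Or.inr ?_
        change (Q.relIndex (K.comap π)).Coprime p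
        have e := relIndex_ker (f := π) (K.comap π)
        rw [QuotientGroup.ker_mk', map_comap_eq_self_of_surjective (QuotientGroup.mk'_surjective Q)] at e
        rw [e]
        exact hKcop
      · refine Or.inl ?_
        obtain ⟨k, hk⟩ := IsPGroup.iff_card.1 T.2
        refine ⟨k, ?_⟩
        change (K.comap π).relIndex ⊤ = _
        rw [relIndex_top_right, Subgroup.index_comap_of_surjective _ (QuotientGroup.mk'_surjective Q),
          hKc.symm.index_eq_card, hk]
  have hcQ : centralizer (Q : Set G) ≤ Q := H59.centralizer_pCore_le_of_isPSolvable hsep hO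
  -- proper subgroups of the complement normalised by `T` are trivial
  have hkey : ∀ R : Subgroup (G ⧸ Q), R ≤ K → (T : Subgroup (G ⧸ Q)) ≤ normalizer (R : Set (G ⧸ Q)) →
      R = ⊥ ∨ R = K := by
    intro R hRK hRT
    set M := (R ⊔ (T : Subgroup (G ⧸ Q))).comap π
    by_cases hM : M = ⊤
    · right
      have hRT' : R ⊔ (T : Subgroup (G ⧸ Q)) = ⊤ := by
        rw [← map_comap_eq_self_of_surjective (QuotientGroup.mk'_surjective Q) (R ⊔ (T : Subgroup (G ⧸ Q)))]
        change M.map π = ⊤
        rw [hM, ← MonoidHom.range_eq_map, QuotientGroup.range_mk']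
      refine le_antisymm hRK fun x hx => ?_
      have hx' : x ∈ (R : Set (G ⧸ Q)) * (T : Subgroup (G ⧸ Q)) := by
        rw [← Subgroup.coe_mul_of_right_le_normalizer_left _ _ hRT, hRT']; trivial
      obtain ⟨r, hr, t, ht, rfl⟩ := Set.mem_mul.1 hx'
      have htK : t ∈ K := (Subgroup.mul_mem_cancel_left K (hRK hr)).1 hx
      have ht1 : t ∈ (K ⊓ T : Subgroup (G ⧸ Q)) := ⟨htK, ht⟩
      rw [hKc.disjoint.eq_bot, mem_bot] at ht1
      rwa [ht1, mul_one]
    · left
      have hSM : (S : Subgroup G) ≤ M := map_le_iff_le_comap.1 (le_sup_right : (T : Subgroup (G ⧸ Q)) ≤ _)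
      have hMp := isPGroup_of_centralizer_le M Q hQp (hSQ.trans hSM) hcQ (hsub M S hM hSM)
      have hMS : (S : Subgroup G) = M := (S.3 hMp hSM).symm
      have hRT2 : R ≤ T := by
        intro r hr
        obtain ⟨g, rfl⟩ := QuotientGroup.mk'_surjective Q r
        have hgM : g ∈ M := mem_sup_left (T := (T : Subgroup (G ⧸ Q))) hr
        exact mem_map_of_mem π (hMS ▸ hgM : g ∈ (S : Subgroup G))
      exact le_bot_iff.1 ((le_inf hRK hRT2).trans hKc.disjoint.eq_bot.le)
  have hK1 : K ≠ ⊥ := by
    intro h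
    subst h
    rw [Subgroup.isComplement'_bot_left] at hKc
    have hS : (S : Subgroup G) = ⊤ := by
      rw [eq_top_iff]
      intro g _
      have hg : π g ∈ (T : Subgroup (G ⧸ Q)) := hKc ▸ mem_top _
      obtain ⟨s, hs, hsg⟩ := hg
      have h1 : s⁻¹ * g ∈ Q := by
        rw [← QuotientGroup.eq_one_iff (N := Q)]
        change π (s⁻¹ * g) = 1
        rw [map_mul, map_inv, hsg, inv_mul_cancel]
      have h2 := mul_mem hs (hSQ h1)
      rwa [mul_inv_cancel_left] at h2
    exact hG (H22.hasNormalPComplement_of_normal (⊥ : Subgroup G)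
      (by rw [Subgroup.card_bot]; exact (Fact.out : p.Prime).not_dvd_one)
      ((hS ▸ S.2 : IsPGroup p ↥(⊤ : Subgroup G)).of_equiv
        (Subgroup.topEquiv.trans (QuotientGroup.quotientBot).symm)))
  -- `K` is a `q`-group
  have hTK : (T : Subgroup (G ⧸ Q)) ≤ normalizer (K : Set (G ⧸ Q)) :=
    le_top.trans_eq (normalizer_eq_top_iff.2 hKn).symm
  obtain ⟨q, hq, hqK⟩ := Nat.exists_prime_and_dvd
    (fun h => hK1 ((Subgroup.card_eq_one (H := K)).1 h))
  haveI := Fact.mk hq
  have hcopT : (Nat.card ↥(T : Subgroup (G ⧸ Q))).Coprime (Nat.card K) := by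
    obtain ⟨k, hk⟩ := IsPGroup.iff_card.1 T.2
    rw [hk]
    exact (hKcop.pow_right k).symm
  obtain ⟨R, hRK, hRT, hRq, hRcard⟩ := H20.exists_invariant_sylow_subgroup
    (A := (T : Subgroup (G ⧸ Q))) (K := K) hTK hcopT (Or.inl (H20.isSolvable_of_isPGroup T.2)) q
  have hR1 : R ≠ ⊥ := by
    intro h
    rw [h, Subgroup.card_bot] at hRcard
    exact (hq.factorization_pos_of_dvd Nat.card_pos.ne' hqK).ne'
      ((Nat.pow_eq_one.1 hRcard.symm).resolve_left hq.ne_one)
  have hKq : IsPGroup q K := ((hkey R hRK hRT).resolve_left hR1) ▸ hRq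
  -- `K` is abelian
  have hKab : IsMulCommutative K := by
    set Z := (center ↥K).map K.subtype
    have hZT : (T : Subgroup (G ⧸ Q)) ≤ normalizer (Z : Set (G ⧸ Q)) := by
      have : Z.Normal := ConjAct.normal_of_characteristic_of_normal
      exact le_top.trans_eq (normalizer_eq_top_iff.2 this).symm
    have hZ1 : Z ≠ ⊥ := by
      haveI : Nontrivial K := K.nontrivial_iff_ne_bot.2 hK1
      haveI := hKq.center_nontrivial
      rw [Ne, Subgroup.map_eq_bot_iff_of_injective _ K.subtype_injective]
      exact (center ↥K).nontrivial_iff_ne_bot.1 inferInstance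
    have hZK := (hkey Z (map_subtype_le _) hZT).resolve_left hZ1
    refine ⟨⟨fun x y => ?_⟩⟩
    obtain ⟨x', hx', hxx⟩ : (x : G ⧸ Q) ∈ Z := hZK.symm ▸ x.2
    obtain rfl : x' = x := Subtype.ext hxx
    exact (mem_center_iff.1 hx' y).symm
  -- Sylow `2`-subgroups are abelian
  have hab : ∀ U : Sylow 2 G, IsMulCommutative U := by
    intro U
    have hUK : ∀ x ∈ (U : Subgroup G), π x ∈ K := by
      intro x hx
      have hx2 : Nat.Coprime (orderOf (π x)) p := by
        obtain ⟨k, hk⟩ := U.2 ⟨x, hx⟩
        have hk' : x ^ 2 ^ k = 1 := congrArg Subtype.val hk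
        exact Nat.Coprime.coprime_dvd_left ((orderOf_map_dvd π x).trans (orderOf_dvd_of_pow_eq_one hk'))
          (((Nat.coprime_primes Nat.prime_two (Fact.out : p.Prime)).2 (Ne.symm hp)).pow_left k)
      rw [H22.eq_pResidual_of_isComplement' T K hKc]
      exact H22.mem_pResidual_of_coprime hx2
    refine ⟨⟨fun x y => Subtype.ext ?_⟩⟩
    have hcm := setLike_mul_comm (s := K) (hUK x x.2) (hUK y y.2)
    have h1 : (x : G) * y * (x : G)⁻¹ * (y : G)⁻¹ ∈ (U : Subgroup G) ⊓ Q := by
      refine mem_inf.2 ⟨mul_mem (mul_mem (mul_mem x.2 y.2) (inv_mem x.2)) (inv_mem y.2), ?_⟩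
      refine (QuotientGroup.eq_one_iff _).1 ?_
      change π ((x : G) * y * (x : G)⁻¹ * (y : G)⁻¹) = 1
      rw [map_mul, map_mul, map_mul, map_inv, map_inv, hcm, mul_inv_cancel_right, mul_inv_cancel]
    have h2 : (U : Subgroup G) ⊓ Q = ⊥ := by
      rw [inf_comm]
      refine H19.inf_eq_bot_of_isPGroup_coprime hQp ?_
      obtain ⟨k, hk⟩ := IsPGroup.iff_card.1 U.2
      rw [hk]
      exact ((Nat.coprime_primes Nat.prime_two (Fact.out : p.Prime)).2 (Ne.symm hp)).pow_left k
    rw [h2, mem_bot, mul_inv_eq_one, mul_inv_eq_iff_eq_mul] at h1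
    exact h1
  have hWn : (stableOf p (S : Subgroup G)).Normal :=
    Cfsg.Agent.S0624.result (Cfsg.Agent.S0626.result hp hab) hcQ S
  have e := normalizer_eq_top_iff.2 hWn
  rw [e] at hN
  exact hG ((H22.hasNormalPComplement_congr Subgroup.topEquiv).1 hN)

end Cfsg.Agent.H34
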